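import Mathlib
import Cfsg.Agent.H3.FCProps

/-!
# Eigenfunctions for Frobenius complements; products of two elements of order `3`
-/

set_option autoImplicit false

namespace CfsgH3

open Polynomial

variable {G : Type*} [Group G]

theorem CosetSumZero.translate {R : Type*} [AddCommMonoid R] {v : G → R} (hv : CosetSumZero v)
    (h : G) : CosetSumZero fun w => v (w * h) := by
  intro g hg x
  have h1 : orderOf (h⁻¹ * g * h) = orderOf g := by
    simpa using (MulAut.conj h⁻¹).orderOf_eq g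
  have h2 : h⁻¹ * g * h ≠ 1 := by
    intro h3
    rw [h3, orderOf_one, eq_comm, orderOf_eq_one_iff] at h1
    exact hg h1
  have := hv _ h2 (x * h)
  rw [h1] at this
  rw [← this]
  refine Finset.sum_congr rfl fun i _ => ?_
  have h4 : (h⁻¹ * g * h) ^ i = h⁻¹ * g ^ i * h := by
    simpa using conj_pow (a := h⁻¹) (b := g) (i := i)
  rw [h4]
  congr 1
  group

/-- the `η`-component of `f` with respect to right translation by `g` -/
noncomputable def eigComp (f : G → ℤ) (g : G) (η : ℂ) (w : G) : ℂ :=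
  ∑ k ∈ Finset.range (orderOf g), η ^ k * f (w * g ^ k)

theorem eigComp_cosetSumZero {f : G → ℤ} (hf : CosetSumZero f) (g : G) (η : ℂ) :
    CosetSumZero (eigComp f g η) := by
  intro c hc x
  simp only [eigComp]
  rw [Finset.sum_comm]
  refine Finset.sum_eq_zero fun k _ => ?_
  rw [← Finset.mul_sum]
  have := hf.translate (g ^ k) c hc x
  have h2 := congrArg (Int.cast : ℤ → ℂ) this
  push_cast at h2
  rw [h2, mul_zero]

theorem eigComp_shift (f : G → ℤ) (g : G) {η : ℂ} (hη : η ^ orderOf g = 1) (w : G) :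
    η * eigComp f g η (w * g) = eigComp f g η w := by
  simp only [eigComp, Finset.mul_sum]
  have h1 := Finset.sum_range_succ (fun k => η ^ k * f (w * g ^ k)) (orderOf g)
  have h2 := Finset.sum_range_succ' (fun k => η ^ k * f (w * g ^ k)) (orderOf g)
  rw [h1, pow_orderOf_eq_one, hη, pow_zero, pow_zero] at h2
  rw [add_right_cancel h2]
  refine Finset.sum_congr rfl fun k _ => ?_
  rw [pow_succ', pow_succ', mul_assoc, mul_assoc]

theorem eigComp_eq_zero [Finite G] {f : G → ℤ} (hf : CosetSumZero f) (g : G) {η : ℂ}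
    (hη : η ^ orderOf g = 1) {d : ℕ} (hd : η ^ d = 1) (hgd : g ^ d ≠ 1) (w : G) :
    eigComp f g η w = 0 := by
  have h1 : ∀ (k : ℕ) (w : G), η ^ k * eigComp f g η (w * g ^ k) = eigComp f g η w := by
    intro k
    induction k with
    | zero => simp
    | succ k ih =>
      intro w
      rw [pow_succ, pow_succ, mul_assoc, ← mul_assoc w, eigComp_shift f g hη, ih]
  have h2 := eigComp_cosetSumZero hf g η _ hgd w
  have h3 : ∀ i : ℕ, eigComp f g η (w * (g ^ d) ^ i) = eigComp f g η w := by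
    intro i
    rw [← h1 (d * i) w, pow_mul, hd, one_pow, one_mul, pow_mul]
  simp only [h3, Finset.sum_const, Finset.card_range, nsmul_eq_mul, mul_eq_zero,
    Nat.cast_eq_zero] at h2
  exact h2.resolve_left (orderOf_pos _).ne'

theorem eigComp_ne_zero [Finite G] {f : G → ℤ} (hf : CosetSumZero f) (hf0 : f ≠ 0) (g : G) {ζ : ℂ}
    (hζ : IsPrimitiveRoot ζ (orderOf g)) : eigComp f g ζ ≠ 0 := by
  intro h0
  apply hf0
  ext w
  have hN := orderOf_pos g
  let P : ℚ[X] := ∑ k ∈ Finset.range (orderOf g), monomial k (f (w * g ^ k) : ℚ)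
  have hP : ∀ η : ℂ, aeval η P = eigComp f g η w := by
    intro η
    simp [P, eigComp, aeval_monomial, mul_comm]
  have hroot : ∀ η : ℂ, η ^ orderOf g = 1 → aeval η P = 0 := by
    intro η hη
    by_cases hd : g ^ orderOf η = 1
    · have h1 : orderOf η = orderOf g :=
        Nat.dvd_antisymm (orderOf_dvd_of_pow_eq_one hη) (orderOf_dvd_of_pow_eq_one hd)
      have h2 : IsPrimitiveRoot η (orderOf g) := h1 ▸ IsPrimitiveRoot.orderOf η
      have h3 : minpoly ℚ ζ ∣ P := minpoly.dvd _ _ (by rw [hP, h0]; rfl)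
      rw [← cyclotomic_eq_minpoly_rat hζ hN, cyclotomic_eq_minpoly_rat h2 hN] at h3
      exact aeval_eq_zero_of_dvd_aeval_eq_zero h3 (minpoly.aeval _ _)
    · rw [hP]
      exact eigComp_eq_zero hf g hη (pow_orderOf_eq_one η) hd w
  have hdeg : P.natDegree < orderOf g := by
    refine lt_of_le_of_lt (natDegree_sum_le_of_forall_le _ _ (n := orderOf g - 1) fun k hk => ?_)
      (by omega)
    have := Finset.mem_range.1 hk
    exact (natDegree_monomial_le _).trans (by omega)
  have hP0 : P.map (algebraMap ℚ ℂ) = 0 := by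
    refine eq_zero_of_natDegree_lt_card_of_eval_eq_zero' _ (nthRootsFinset (orderOf g) (1 : ℂ))
      (fun η hη => ?_) ?_
    · rw [eval_map_algebraMap]
      exact hroot η ((mem_nthRootsFinset hN _).1 hη)
    · rw [hζ.card_nthRootsFinset]
      exact natDegree_map_le.trans_lt hdeg
  rw [Polynomial.map_eq_zero] at hP0
  have := congrArg (fun p => coeff p 0) hP0
  simpa [P, coeff_monomial, hN] using this

theorem CosetSumZero.three {R : Type*} [AddCommMonoid R] {v : G → R} (hv : CosetSumZero v) {y : G}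
    (hy : orderOf y = 3) (w : G) : v w + v (w * y) + v (w * y⁻¹) = 0 := by
  have h1 := hv y (by rintro rfl; simp at hy) w
  have h2 : y ^ 2 = y⁻¹ := by
    rw [eq_inv_iff_mul_eq_one, ← pow_succ]
    exact (hy ▸ pow_orderOf_eq_one y : y ^ 3 = 1)
  rw [hy] at h1
  simpa [Finset.sum_range_succ, h2] using h1

theorem IsFC.re_ge_of_three [Finite G] (hG : IsFC G) {a b : G} (ha : orderOf a = 3)
    (hb : orderOf b = 3) {ζ : ℂ} (hζ : IsPrimitiveRoot ζ (orderOf (a * b))) :
    ‖1 - ζ - ζ⁻¹‖ ≤ 2 := by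
  obtain ⟨f, hf0, hf⟩ := hG
  have hv := eigComp_cosetSumZero hf (a * b) ζ
  have hv0 := eigComp_ne_zero hf hf0 _ hζ
  have hs := eigComp_shift f (a * b) hζ.pow_eq_one
  set v := eigComp f (a * b) ζ
  have hζ0 : ζ ≠ 0 := hζ.ne_zero (orderOf_pos _).ne'
  obtain ⟨w, hw⟩ := Finite.exists_max fun w => ‖v w‖
  have hw0 : 0 < ‖v w‖ := by
    obtain ⟨x, hx⟩ := Function.ne_iff.1 hv0
    exact (norm_pos_iff.2 hx).trans_le (hw x)
  have e1 := (hv.translate b).three ha w
  have e2 := hv.three ha (w * b⁻¹)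
  have e3 := hv.three hb w
  have e4 := hs w
  have e5 := hs (w * b⁻¹ * a⁻¹)
  have e6 : w * b⁻¹ * a⁻¹ * (a * b) = w := by group
  rw [e6] at e5
  rw [← mul_assoc] at e4
  have e7 : v (w * a * b) = ζ⁻¹ * v w := by rw [← e4]; field_simp
  have key : (1 - ζ - ζ⁻¹) * v w = v (w * a⁻¹ * b) + v (w * b⁻¹ * a) := by
    linear_combination e3 - e1 - e2 - e5 + e7
  have h1 := congrArg norm key
  rw [norm_mul] at h1
  have h2 := norm_add_le (v (w * a⁻¹ * b)) (v (w * b⁻¹ * a))
  have h3 := hw (w * a⁻¹ * b)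
  have h4 := hw (w * b⁻¹ * a)
  by_contra hcon
  push Not at hcon
  nlinarith

theorem IsFC.not_third_lt [Finite G] (hG : IsFC G) {a b : G} (ha : orderOf a = 3)
    (hb : orderOf b = 3) {k : ℕ} (hk : k.Coprime (orderOf (a * b)))
    (h1 : orderOf (a * b) < 3 * k) (h2 : 2 * k ≤ orderOf (a * b)) : False := by
  have hN := orderOf_pos (a * b)
  have h3 := hG.re_ge_of_three ha hb (Complex.isPrimitiveRoot_exp_of_coprime k _ hN.ne' hk)
  set N := orderOf (a * b)
  set θ : ℝ := 2 * Real.pi * (k / N) with hθ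
  have h4 : (2 * Real.pi * Complex.I * (k / N) : ℂ) = θ * Complex.I := by
    rw [hθ]; push_cast; ring
  have h5 : 1 - Complex.exp (θ * Complex.I) - (Complex.exp (θ * Complex.I))⁻¹ =
      ((1 - 2 * Real.cos θ : ℝ) : ℂ) := by
    rw [← Complex.exp_neg]
    push_cast
    rw [Complex.two_cos]
    ring_nf
  rw [h4, h5, Complex.norm_real, Real.norm_eq_abs] at h3
  have hNr : (0 : ℝ) < N := by exact_mod_cast hN
  have h6 : (1 : ℝ) / 3 < k / N := by
    rw [div_lt_div_iff₀ (by norm_num) hNr]
    have : (N : ℝ) < 3 * k := by exact_mod_cast h1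
    linarith
  have h7 : (k : ℝ) / N ≤ 1 / 2 := by
    rw [div_le_div_iff₀ hNr (by norm_num)]
    have : (2 * k : ℝ) ≤ N := by exact_mod_cast h2
    linarith
  have h8 : Real.cos θ < Real.cos (Real.pi - Real.pi / 3) := by
    apply Real.cos_lt_cos_of_nonneg_of_le_pi
    · linarith [Real.pi_pos]
    · rw [hθ]; nlinarith [Real.pi_pos]
    · rw [hθ]; nlinarith [Real.pi_pos]
  rw [Real.cos_pi_sub, Real.cos_pi_div_three] at h8
  have := le_abs_self (1 - 2 * Real.cos θ)
  linarith

/-- the product of two elements of order `3` of a Frobenius complement has order `1, 3, 4, 6, 10` -/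
theorem IsFC.orderOf_mul_three [Finite G] (hG : IsFC G) {a b : G} (ha : orderOf a = 3)
    (hb : orderOf b = 3) : orderOf (a * b) = 1 ∨ orderOf (a * b) = 3 ∨ orderOf (a * b) = 4 ∨
      orderOf (a * b) = 6 ∨ orderOf (a * b) = 10 := by
  have key := @hG.not_third_lt _ _ _ a b ha hb
  have hN := orderOf_pos (a * b)
  generalize orderOf (a * b) = N at key hN ⊢
  by_contra hcon
  push Not at hcon
  obtain ⟨h1, h3, h4, h6, h10⟩ := hcon
  obtain ⟨m, rfl | rfl⟩ := Nat.even_or_odd' N
  · obtain ⟨l, rfl | rfl⟩ := Nat.even_or_odd' m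
    · obtain ⟨l, rfl⟩ : ∃ l', l = l' + 1 := ⟨l - 1, by omega⟩
      refine key (k := 2 * l + 1) ?_ (by omega) (by omega)
      have e : 2 * (2 * (l + 1)) = 2 + (2 * l + 1) * 2 := by ring
      rw [e, Nat.coprime_add_mul_left_right, Nat.coprime_two_right]
      exact odd_two_mul_add_one l
    · by_cases hl : l = 0
      · subst hl
        exact key (k := 1) (by simp) (by omega) (by omega)
      obtain ⟨l, rfl⟩ : ∃ l', l = l' + 1 := ⟨l - 1, by omega⟩
      refine key (k := 2 * l + 1) ?_ (by omega) (by omega)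
      have e : 2 * (2 * (l + 1) + 1) = 2 ^ 2 + (2 * l + 1) * 2 := by ring
      rw [e, Nat.coprime_add_mul_left_right]
      apply Nat.Coprime.pow_right
      rw [Nat.coprime_two_right]
      exact odd_two_mul_add_one l
  · refine key (k := m) ?_ (by omega) (by omega)
    have e : 2 * m + 1 = 1 + m * 2 := by ring
    rw [e, Nat.coprime_add_mul_left_right]
    simp

end CfsgH3
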