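import Mathlib

/-!
# Quaternionic coordinates in a `ℚ`-algebra containing two anticommuting square roots of `-1`
-/

set_option autoImplicit false

namespace CfsgH3

theorem natCast_cancel {D : Type*} [Ring D] [Algebra ℚ D] (n : ℕ) [n.AtLeastTwo] {a : D}
    (h : (OfNat.ofNat n : D) * a = 0) : a = 0 := by
  have h1 : IsUnit (OfNat.ofNat n : D) := by
    have h2 : IsUnit (OfNat.ofNat n : ℚ) := by
      rw [isUnit_iff_ne_zero]
      exact OfNat.ofNat_ne_zero n
    have := h2.map (algebraMap ℚ D)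
    rwa [map_ofNat] at this
  exact (h1.mul_right_eq_zero).1 h

theorem ofNat_ne_zero' {D : Type*} [Ring D] [Algebra ℚ D] [Nontrivial D] (n : ℕ) [n.AtLeastTwo] :
    (OfNat.ofNat n : D) ≠ 0 := fun h =>
  one_ne_zero (natCast_cancel n (a := (1 : D)) (by rw [mul_one, h]))

theorem lit {R : Type*} [Ring R] (n : ℕ) [n.AtLeastTwo] :
    (ofNat(n) : R) = (OfNat.ofNat n : ℕ) • (1 : R) := by
  simp only [nsmul_eq_mul, Nat.cast_ofNat, mul_one]

/-- two anticommuting square roots of `-1` -/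
structure QData (A : Type*) [Ring A] where
  /-- first unit -/
  I : A
  /-- second unit -/
  J : A
  hI : I * I = -1
  hJ : J * J = -1
  hJI : J * I = -(I * J)

namespace QData

variable {A : Type*} [Ring A] [Algebra ℚ A] (Q : QData A)

/-- the centralizer of the quaternion units -/
def D : Subalgebra ℚ A := Subalgebra.centralizer ℚ {Q.I, Q.J}

/-- quaternionic coordinates -/
def q (a b c d : Q.D) : A := a + Q.I * b + Q.J * c + Q.I * (Q.J * d)

theorem cI (b : Q.D) : (b : A) * Q.I = Q.I * b := (b.2 Q.I (by simp)).symm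
theorem cJ (b : Q.D) : (b : A) * Q.J = Q.J * b := (b.2 Q.J (by simp)).symm
theorem cI' (b : Q.D) (x : A) : (b : A) * (Q.I * x) = Q.I * (b * x) := by
  rw [← mul_assoc, cI, mul_assoc]
theorem cJ' (b : Q.D) (x : A) : (b : A) * (Q.J * x) = Q.J * (b * x) := by
  rw [← mul_assoc, cJ, mul_assoc]
omit [Algebra ℚ A] in
theorem hI' (x : A) : Q.I * (Q.I * x) = -x := by rw [← mul_assoc, Q.hI, neg_one_mul]
omit [Algebra ℚ A] in
theorem hJ' (x : A) : Q.J * (Q.J * x) = -x := by rw [← mul_assoc, Q.hJ, neg_one_mul]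
omit [Algebra ℚ A] in
theorem hJI' (x : A) : Q.J * (Q.I * x) = -(Q.I * (Q.J * x)) := by
  rw [← mul_assoc, Q.hJI, neg_mul, mul_assoc]

theorem q_mul (a b c d a' b' c' d' : Q.D) : Q.q a b c d * Q.q a' b' c' d' =
    Q.q (a * a' - b * b' - c * c' - d * d') (a * b' + b * a' + c * d' - d * c')
      (a * c' + c * a' + d * b' - b * d') (a * d' + d * a' + b * c' - c * b') := by
  simp only [q, mul_add, add_mul, mul_sub, mul_assoc, cI', cJ', hI', hJ', hJI', mul_neg, neg_neg,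
    Subalgebra.coe_add, Subalgebra.coe_sub, Subalgebra.coe_mul]
  abel

theorem q_add (a b c d a' b' c' d' : Q.D) : Q.q a b c d + Q.q a' b' c' d' =
    Q.q (a + a') (b + b') (c + c') (d + d') := by
  simp only [q, mul_add, Subalgebra.coe_add]
  abel

theorem q_neg (a b c d : Q.D) : -Q.q a b c d = Q.q (-a) (-b) (-c) (-d) := by
  simp only [q, mul_neg, Subalgebra.coe_neg]
  abel

theorem q_ofNat (n : ℕ) [n.AtLeastTwo] : (OfNat.ofNat n : A) = Q.q (OfNat.ofNat n) 0 0 0 := by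
  simp [q]; rfl

theorem q_one : (1 : A) = Q.q 1 0 0 0 := by simp [q]
theorem q_zero : (0 : A) = Q.q 0 0 0 0 := by simp [q]
theorem q_I : Q.I = Q.q 0 1 0 0 := by simp [q]
theorem q_J : Q.J = Q.q 0 0 1 0 := by simp [q]
theorem q_K : Q.I * Q.J = Q.q 0 0 0 1 := by simp [q]

/-- four times the projection to the centralizer -/
def pr (x : A) : A := x - Q.I * (x * Q.I) - Q.J * (x * Q.J) - Q.I * (Q.J * (x * (Q.I * Q.J)))

theorem pr_q (a b c d : Q.D) : Q.pr (Q.q a b c d) = 4 * a := by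
  simp only [pr, q, mul_add, add_mul, mul_assoc, cI', cJ', hI', hJ', hJI', mul_neg, neg_neg,
    cI, cJ]
  noncomm_ring

theorem q_eq_zero {a b c d : Q.D} (h : Q.q a b c d = 0) : a = 0 ∧ b = 0 ∧ c = 0 ∧ d = 0 := by
  have key : ∀ {a b c d : Q.D}, Q.q a b c d = 0 → a = 0 := by
    intro a b c d h
    have := Q.pr_q a b c d
    rw [h] at this
    simp only [pr, zero_mul, mul_zero, sub_zero] at this
    exact Subtype.ext (natCast_cancel 4 this.symm)
  have h1 : Q.I * Q.q a b c d = 0 := by rw [h, mul_zero]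
  have h2 : Q.J * Q.q a b c d = 0 := by rw [h, mul_zero]
  have h3 : Q.I * Q.J * Q.q a b c d = 0 := by rw [h, mul_zero]
  rw [q_K, q_mul] at h3
  rw [q_J, q_mul] at h2
  rw [q_I, q_mul] at h1
  exact ⟨key h, by simpa using key h1, by simpa using key h2, by simpa using key h3⟩

theorem q_inj {a b c d a' b' c' d' : Q.D} (h : Q.q a b c d = Q.q a' b' c' d') :
    a = a' ∧ b = b' ∧ c = c' ∧ d = d' := by
  rw [← sub_eq_zero, sub_eq_add_neg, q_neg, q_add] at h
  simpa only [add_neg_eq_zero] using Q.q_eq_zero h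

theorem pr_mem (x : A) : Q.pr x ∈ Q.D := by
  rintro y (rfl | rfl)
  all_goals
    simp only [pr, mul_sub, sub_mul, mul_assoc, hI', hJ', hJI', mul_neg, neg_neg, Q.hI, Q.hJ,
      Q.hJI, mul_one]
    abel

theorem q_surj (x : A) : ∃ a b c d : Q.D, x = Q.q a b c d := by
  refine ⟨(1 / 4 : ℚ) • ⟨_, Q.pr_mem x⟩, (-1 / 4 : ℚ) • ⟨_, Q.pr_mem (Q.I * x)⟩,
    (-1 / 4 : ℚ) • ⟨_, Q.pr_mem (Q.J * x)⟩, (-1 / 4 : ℚ) • ⟨_, Q.pr_mem (Q.I * (Q.J * x))⟩, ?_⟩
  simp only [q, pr, Subalgebra.coe_smul, mul_smul_comm, mul_sub, mul_assoc, hI', hJ', hJI',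
    mul_neg, neg_neg, neg_mul]
  module

end QData

end CfsgH3
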