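import Mathlib
import Cfsg.Agent.H3.FCEig
import Cfsg.Agent.H3.QuatDec

/-!
# Elements of order `3` of a Frobenius complement act quadratically
-/

set_option autoImplicit false

namespace CfsgH3

/-- a fixed-point-free homomorphism to a ring -/
def Fpf {G A : Type*} [Group G] [Ring A] (φ : G →* A) : Prop :=
  ∀ g, g ≠ 1 → ∀ a, (φ g - 1) * a = 0 → a = 0

theorem IsFC.exists_fpf {G : Type*} [Group G] [Finite G] (hG : IsFC G) :
    ∃ (A : Type) (_ : Ring A) (_ : Algebra ℚ A) (_ : Nontrivial A) (φ : G →* A), Fpf φ := by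
  obtain ⟨V, _, _, _, ρ, hV, -, h⟩ := hG.exists_rep ℚ
  refine ⟨Module.End ℚ V, inferInstance, inferInstance, inferInstance, ρ, fun g hg a ha => ?_⟩
  ext v
  refine h g hg _ ?_
  have := LinearMap.congr_fun ha v
  simpa [sub_eq_zero] using this

variable {G A : Type*} [Group G] [Ring A] {φ : G →* A}

theorem map_inv_mul' (φ : G →* A) (g : G) : φ g⁻¹ * φ g = 1 := by rw [← map_mul]; simp
theorem map_mul_inv' (φ : G →* A) (g : G) : φ g * φ g⁻¹ = 1 := by rw [← map_mul]; simp

theorem Fpf.reg (hφ : Fpf φ) {g h : G} (hgh : g ≠ h) {a : A} (ha : (φ g - φ h) * a = 0) :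
    a = 0 := by
  refine hφ (h⁻¹ * g) (fun h1 => hgh (inv_mul_eq_one.1 h1).symm) a ?_
  rw [map_mul, ← map_inv_mul' φ h, ← mul_sub, mul_assoc, ha, mul_zero]

theorem Fpf.inj [Nontrivial A] (hφ : Fpf φ) {g h : G} (hgh : φ g = φ h) : g = h := by
  by_contra h1
  exact one_ne_zero (hφ.reg h1 (a := 1) (by rw [hgh, sub_self, zero_mul]))

theorem Fpf.neg (hφ : Fpf φ) {g : G} (hg : orderOf g = 2) : φ g = -1 := by
  have h1 : φ g * φ g = 1 := by rw [← map_mul, ← sq, ← hg, pow_orderOf_eq_one, map_one]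
  have := hφ g (by rintro rfl; simp at hg) (φ g + 1)
    (by linear_combination (norm := noncomm_ring [lit]) h1)
  exact eq_neg_of_add_eq_zero_left this

theorem Fpf.three (hφ : Fpf φ) {g : G} (hg : orderOf g = 3) : φ g * φ g = -φ g - 1 := by
  have h1 : φ g ^ 3 = 1 := by rw [← map_pow, ← hg, pow_orderOf_eq_one, map_one]
  have := hφ g (by rintro rfl; simp at hg) (φ g * φ g + φ g + 1)
    (by linear_combination (norm := noncomm_ring [lit]) h1)
  linear_combination (norm := noncomm_ring [lit]) this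

theorem Fpf.three_inv (hφ : Fpf φ) {g : G} (hg : orderOf g = 3) : φ g⁻¹ = -φ g - 1 := by
  rw [← hφ.three hg, ← map_mul]
  congr 1
  rw [inv_eq_iff_mul_eq_one, ← mul_assoc, ← pow_three', ← hg, pow_orderOf_eq_one]

/-- the square root of `-3` attached to an element of order `3` -/
def sE (φ : G →* A) (y : G) : A := 2 * φ y + 1

/-- the anticommutator form -/
def cE (φ : G →* A) (a b : G) : A := -(sE φ a * sE φ b + sE φ b * sE φ a)

theorem Fpf.sE_sq (hφ : Fpf φ) {g : G} (hg : orderOf g = 3) : sE φ g * sE φ g = -3 := by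
  have := hφ.three hg
  unfold sE
  linear_combination (norm := noncomm_ring [lit]) 4 * this

theorem Fpf.sE_inv (hφ : Fpf φ) {g : G} (hg : orderOf g = 3) : sE φ g⁻¹ = -sE φ g := by
  unfold sE
  rw [hφ.three_inv hg]
  noncomm_ring [lit]

theorem sE_conj (φ : G →* A) (g y : G) : sE φ (g * y * g⁻¹) = φ g * sE φ y * φ g⁻¹ := by
  have := map_mul_inv' φ g
  simp only [sE, map_mul]
  linear_combination (norm := noncomm_ring [lit]) -this

theorem Fpf.cE_inv (hφ : Fpf φ) {a : G} (ha : orderOf a = 3) (b : G) :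
    cE φ a⁻¹ b = -cE φ a b := by
  simp only [cE, hφ.sE_inv ha]
  noncomm_ring [lit]

theorem Fpf.cE_eq (hφ : Fpf φ) {a b : G} (ha : orderOf a = 3) (hb : orderOf b = 3) :
    cE φ a b = 2 - 4 * (φ (a * b) + φ (a * b)⁻¹) := by
  simp only [cE, sE, mul_inv_rev, map_mul, hφ.three_inv ha, hφ.three_inv hb]
  noncomm_ring [lit]

theorem orderOf_conj' {g : G} (x : G) : orderOf (x * g * x⁻¹) = orderOf g := by
  simpa using (MulAut.conj x).orderOf_eq g

theorem orderOf_pow_of_mul {g : G} {m n : ℕ} (hm : 0 < m) (h : orderOf g = m * n) :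
    orderOf (g ^ m) = n := by
  rw [orderOf_pow' _ hm.ne', h, Nat.gcd_eq_right (Dvd.intro n rfl), Nat.mul_div_cancel_left _ hm]

variable [Algebra ℚ A]

theorem Fpf.sE_inj [Nontrivial A] (hφ : Fpf φ) {a b : G} (h : sE φ a = sE φ b) : a = b := by
  refine hφ.inj (sub_eq_zero.1 (natCast_cancel 2 ?_))
  unfold sE at h
  linear_combination (norm := noncomm_ring [lit]) h

omit [Algebra ℚ A] in
theorem Fpf.cE_sq_of_ten (hφ : Fpf φ) {a b : G} (ha : orderOf a = 3) (hb : orderOf b = 3)
    (h : orderOf (a * b) = 10) : cE φ a b * cE φ a b = 20 := by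
  have hc := hφ.cE_eq ha hb
  have h1 := map_mul_inv' φ (a * b)
  have h2 := map_inv_mul' φ (a * b)
  have h0 := orderOf_pow_of_mul (m := 5) (n := 2) (by norm_num) h
  have h3 := hφ.neg h0
  have h5 : φ (a * b) ^ 4 - φ (a * b) ^ 3 + φ (a * b) ^ 2 - φ (a * b) + 1 = 0 := by
    refine hφ.reg (g := a * b) (h := (a * b) ^ 5) (fun h6 => ?_) ?_
    · rw [← h6, h] at h0; omega
    · rw [h3]; rw [map_pow] at h3
      linear_combination (norm := noncomm_ring [lit]) h3
  rw [hc]
  generalize φ (a * b) = X at *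
  generalize φ (a * b)⁻¹ = Y at *
  have h6 : ∀ x, Y * (X * x) = x := fun x => by rw [← mul_assoc, h2, one_mul]
  have h7 := congrArg (fun x => Y * (Y * x)) h5
  simp only [pow_succ, pow_zero, one_mul, mul_assoc, mul_add, mul_sub, h6, h2, mul_one,
    mul_zero] at h7
  linear_combination (norm := noncomm_ring [lit]) 16 * h7 + 16 * h1 + 16 * h2

theorem Fpf.pair [Finite G] [Nontrivial A] (hφ : Fpf φ) (hG : IsFC G) {a b : G} (ha : orderOf a = 3)
    (hb : orderOf b = 3) : a = b⁻¹ ∨ a = b ∨ cE φ a b = 2 ∨ cE φ a b = -2 ∨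
      (cE φ a b * cE φ a b = 20 ∧ orderOf (a * b) = 10) := by
  have hc := hφ.cE_eq ha hb
  have h1 := map_mul_inv' φ (a * b)
  have h2 := map_inv_mul' φ (a * b)
  rcases hG.orderOf_mul_three ha hb with h | h | h | h | h
  · exact Or.inl (eq_inv_of_mul_eq_one_left (orderOf_eq_one_iff.1 h))
  · right; left
    by_contra hab
    rw [hφ.three_inv h] at hc
    have h3 := hφ.sE_sq ha
    have h4 := hφ.sE_sq hb
    have h5 : (φ a - φ b) * (φ a - φ b) = 0 := by
      apply natCast_cancel 4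
      unfold cE at hc
      unfold sE at hc h3 h4
      linear_combination (norm := noncomm_ring [lit]) hc + h3 + h4
    have h6 := hφ.reg hab h5
    exact hab (hφ.inj (sub_eq_zero.1 h6))
  · right; right; left
    have h3 := hφ.neg (orderOf_pow_of_mul (m := 2) (n := 2) two_pos h)
    rw [map_pow] at h3
    have h4 : φ (a * b) + φ (a * b)⁻¹ = 0 := by
      linear_combination (norm := noncomm_ring [lit]) φ (a * b)⁻¹ * h3 - h2 * φ (a * b)
    rw [hc, h4]; simp
  · right; right; right; left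
    have h0 := orderOf_pow_of_mul (m := 3) (n := 2) three_pos h
    have h3 := hφ.neg h0
    have h5 : φ (a * b) * φ (a * b) - φ (a * b) + 1 = 0 := by
      refine hφ.reg (g := a * b) (h := (a * b) ^ 3) (fun h6 => ?_) ?_
      · rw [← h6, h] at h0; omega
      · rw [h3]; rw [map_pow] at h3
        linear_combination (norm := noncomm_ring [lit]) h3
    have h4 : φ (a * b) + φ (a * b)⁻¹ = 1 := by
      linear_combination (norm := noncomm_ring [lit]) φ (a * b)⁻¹ * h5 - h2 * φ (a * b) + h2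
    rw [hc, h4]; norm_num
  · exact Or.inr (Or.inr (Or.inr (Or.inr ⟨hφ.cE_sq_of_ten ha hb h, h⟩)))

end CfsgH3
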