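import Mathlib
import Cfsg.Agent.H3.QuatDec

/-!
# Ring computations for the classification of elements of order `3` in Frobenius complements
-/

set_option autoImplicit false

namespace CfsgH3

variable {D : Type*} [Ring D] [Algebra ℚ D] [Nontrivial D]

theorem qc_two {d1 d2 d3 : D} (hs : d1 * d1 + d2 * d2 + d3 * d3 = 3)
    (h1 : d1 + d2 + d3 = 1 ∨ d1 + d2 + d3 = -1) (h2 : d1 - d2 - d3 = 1 ∨ d1 - d2 - d3 = -1)
    (h3 : (-d1 + d2 - d3) * (-d1 + d2 - d3) = 1 ∨ (-d1 + d2 - d3) * (-d1 + d2 - d3) = 5)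
    (h4 : (-d1 - d2 + d3) * (-d1 - d2 + d3) = 1 ∨ (-d1 - d2 + d3) * (-d1 - d2 + d3) = 5) :
    d1 = 0 ∧ (d2 + d3 = 1 ∨ d2 + d3 = -1) := by
  have key : ∀ e : D, (e = 1 ∨ e = -1) → d1 + d2 + d3 = e → d1 - d2 - d3 = e → False := by
    intro e he h1 h2
    have e1 : d1 = e := sub_eq_zero.1 (natCast_cancel 2
      (by linear_combination (norm := noncomm_ring [lit]) h1 + h2))
    have e2 : d3 = -d2 := by linear_combination (norm := noncomm_ring [lit]) h1 - e1
    subst e1 e2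
    have e3 : d1 * d1 = 1 := by rcases he with rfl | rfl <;> simp
    have e4 : d2 * d2 - 1 = 0 := natCast_cancel 2
      (by linear_combination (norm := noncomm_ring [lit]) hs - e3)
    rcases h3 with h3 | h3 <;> rcases h4 with h4 | h4
    · exact ofNat_ne_zero' (D := D) 8
        (by linear_combination (norm := noncomm_ring [lit]) h3 + h4 - 2 * e3 - 8 * e4)
    · exact ofNat_ne_zero' (D := D) 4
        (by linear_combination (norm := noncomm_ring [lit]) h3 + h4 - 2 * e3 - 8 * e4)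
    · exact ofNat_ne_zero' (D := D) 4
        (by linear_combination (norm := noncomm_ring [lit]) h3 + h4 - 2 * e3 - 8 * e4)
    · have e5 : d2 = 0 := by
        apply natCast_cancel 8
        rcases he with rfl | rfl
        · linear_combination (norm := noncomm_ring [lit]) h4 - h3
        · linear_combination (norm := noncomm_ring [lit]) h3 - h4
      rw [e5] at e4
      simp at e4
  rcases h1 with h1 | h1 <;> rcases h2 with h2 | h2
  · exact (key 1 (Or.inl rfl) h1 h2).elim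
  · have e1 : d1 = 0 := natCast_cancel 2
      (by linear_combination (norm := noncomm_ring [lit]) h1 + h2)
    exact ⟨e1, Or.inl (by linear_combination (norm := noncomm_ring [lit]) h1 - e1)⟩
  · have e1 : d1 = 0 := natCast_cancel 2
      (by linear_combination (norm := noncomm_ring [lit]) h1 + h2)
    exact ⟨e1, Or.inr (by linear_combination (norm := noncomm_ring [lit]) h1 - e1)⟩
  · exact (key (-1) (Or.inr rfl) h1 h2).elim

/-- `d2 ± d3 = ± 1` -/
def PM {D : Type*} [Ring D] (x y : D) : Prop := x + y = 1 ∨ x + y = -1 ∨ x - y = 1 ∨ x - y = -1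

theorem qc_zero {d1 d2 d3 : D} (hs : d1 * d1 + d2 * d2 + d3 * d3 = 3)
    (h1 : (d1 + d2 + d3 = 1 ∨ d1 + d2 + d3 = -1) ∨ (d1 + d2 + d3) * (d1 + d2 + d3) = 5)
    (h2 : (d1 - d2 - d3 = 1 ∨ d1 - d2 - d3 = -1) ∨ (d1 - d2 - d3) * (d1 - d2 - d3) = 5)
    (h3 : (-d1 + d2 - d3 = 1 ∨ -d1 + d2 - d3 = -1) ∨ (-d1 + d2 - d3) * (-d1 + d2 - d3) = 5)
    (h4 : (-d1 - d2 + d3 = 1 ∨ -d1 - d2 + d3 = -1) ∨ (-d1 - d2 + d3) * (-d1 - d2 + d3) = 5) :
    (d1 = 0 ∧ PM d2 d3) ∨ (d2 = 0 ∧ PM d3 d1) ∨ (d3 = 0 ∧ PM d1 d2) := by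
  have sq : ∀ m : D, (m = 1 ∨ m = -1) → m * m = 1 := by rintro m (rfl | rfl) <;> simp
  have sq' : ∀ m : D, (m = 1 ∨ m = -1) ∨ m * m = 5 → m * m = 1 ∨ m * m = 5 := fun m h =>
    h.imp_left (sq m)
  have q1 := sq' _ h1
  have q2 := sq' _ h2
  have q3 := sq' _ h3
  have q4 := sq' _ h4
  rcases h1 with h1 | h1 <;> rcases h2 with h2 | h2
  · obtain ⟨e1, e2⟩ := qc_two hs h1 h2 q3 q4
    exact Or.inl ⟨e1, e2.imp_right Or.inl⟩
  · rcases h3 with h3 | h3
    · obtain ⟨e1, e2⟩ := qc_two (d1 := d2) (d2 := d3) (d3 := d1)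
        (by rw [← hs]; abel) (by convert h1 using 2 <;> abel) (by convert h3 using 2 <;> abel)
        (by convert q4 using 3 <;> abel) (by convert q2 using 3 <;> abel)
      exact Or.inr (Or.inl ⟨e1, e2.imp_right Or.inl⟩)
    rcases h4 with h4 | h4
    · obtain ⟨e1, e2⟩ := qc_two (d1 := d3) (d2 := d1) (d3 := d2)
        (by rw [← hs]; abel) (by convert h1 using 2 <;> abel) (by convert h4 using 2 <;> abel)
        (by convert q2 using 3 <;> abel) (by convert q3 using 3 <;> abel)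
      exact Or.inr (Or.inr ⟨e1, e2.imp_right Or.inl⟩)
    · exact (ofNat_ne_zero' (D := D) 4 (by
        linear_combination (norm := noncomm_ring [lit]) 4 * hs - sq _ h1 - h2 - h3 - h4)).elim
  · rcases h3 with h3 | h3
    · obtain ⟨e1, e2⟩ := qc_two (d1 := -d3) (d2 := d1) (d3 := -d2)
        (by rw [← hs]; noncomm_ring) (by convert h2 using 2 <;> abel)
        (by convert h3 using 2 <;> abel)
        (by convert q1 using 3 <;> abel) (by convert q4 using 3 <;> abel)
      exact Or.inr (Or.inr ⟨neg_eq_zero.1 e1, Or.inr (Or.inr (by simpa [sub_eq_add_neg] using e2))⟩)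
    rcases h4 with h4 | h4
    · obtain ⟨e1, e2⟩ := qc_two (d1 := -d2) (d2 := d3) (d3 := -d1)
        (by rw [← hs]; noncomm_ring) (by convert h4 using 2 <;> abel)
        (by convert h2 using 2 <;> abel)
        (by convert q1 using 3 <;> abel) (by convert q3 using 3 <;> abel)
      exact Or.inr (Or.inl ⟨neg_eq_zero.1 e1, Or.inr (Or.inr (by simpa [sub_eq_add_neg] using e2))⟩)
    · exact (ofNat_ne_zero' (D := D) 4 (by
        linear_combination (norm := noncomm_ring [lit]) 4 * hs - sq _ h2 - h1 - h3 - h4)).elim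
  · rcases h3 with h3 | h3 <;> rcases h4 with h4 | h4
    · obtain ⟨e1, e2⟩ := qc_two (d1 := -d1) (d2 := d2) (d3 := -d3)
        (by rw [← hs]; noncomm_ring) (by convert h3 using 2 <;> abel)
        (by convert h4 using 2 <;> abel)
        (by convert q1 using 3 <;> abel) (by convert q2 using 3 <;> abel)
      exact Or.inl ⟨neg_eq_zero.1 e1, Or.inr (Or.inr (by simpa [sub_eq_add_neg] using e2))⟩
    · exact (ofNat_ne_zero' (D := D) 4 (by
        linear_combination (norm := noncomm_ring [lit]) 4 * hs - sq _ h3 - h1 - h2 - h4)).elim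
    · exact (ofNat_ne_zero' (D := D) 4 (by
        linear_combination (norm := noncomm_ring [lit]) 4 * hs - sq _ h4 - h1 - h2 - h3)).elim
    · exact (ofNat_ne_zero' (D := D) 8 (by
        linear_combination (norm := noncomm_ring [lit]) 4 * hs - h4 - h1 - h2 - h3)).elim

/-- the relations in the (impossible) case where all four products have order `10` -/
structure QRel {D : Type*} [Ring D] (d0 d1 d2 d3 : D) : Prop where
  h0 : d0 * d0 = -1
  a1 : d0 * d1 = -(d1 * d0)
  a2 : d0 * d2 = -(d2 * d0)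
  a3 : d0 * d3 = -(d3 * d0)
  z12 : d1 * d2 = 0
  z21 : d2 * d1 = 0
  z23 : d2 * d3 = 0
  z32 : d3 * d2 = 0
  z31 : d3 * d1 = 0
  z13 : d1 * d3 = 0
  hs : d1 * d1 + d2 * d2 + d3 * d3 = 2

theorem QRel.shift {D : Type*} [Ring D] {d0 d1 d2 d3 : D} (h : QRel d0 d1 d2 d3) :
    QRel d0 d2 d3 d1 :=
  ⟨h.h0, h.a2, h.a3, h.a1, h.z23, h.z32, h.z31, h.z13, h.z12, h.z21, by rw [← h.hs]; abel⟩

omit [Nontrivial D] in
theorem qc_five {d0 d1 d2 d3 : D} (s0 : d0 * d0 - d1 * d1 - d2 * d2 - d3 * d3 = -3)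
    (s1 : d0 * d1 + d1 * d0 + d2 * d3 - d3 * d2 = 0)
    (s2 : d0 * d2 + d2 * d0 + d3 * d1 - d1 * d3 = 0)
    (s3 : d0 * d3 + d3 * d0 + d1 * d2 - d2 * d1 = 0)
    (h1 : (d1 + d2 + d3) * (d1 + d2 + d3) - 3 * (d0 * d0) = 5)
    (h2 : (d1 - d2 - d3) * (d1 - d2 - d3) - 3 * (d0 * d0) = 5)
    (h3 : (-d1 + d2 - d3) * (-d1 + d2 - d3) - 3 * (d0 * d0) = 5)
    (h4 : (-d1 - d2 + d3) * (-d1 - d2 + d3) - 3 * (d0 * d0) = 5)
    (c1 : (d1 + d2 + d3) * d0 + d0 * (d1 + d2 + d3) = 0)
    (c2 : (d1 - d2 - d3) * d0 + d0 * (d1 - d2 - d3) = 0)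
    (c3 : (-d1 + d2 - d3) * d0 + d0 * (-d1 + d2 - d3) = 0)
    (c4 : (-d1 - d2 + d3) * d0 + d0 * (-d1 - d2 + d3) = 0) : QRel d0 d1 d2 d3 := by
  have a1 : d0 * d1 + d1 * d0 = 0 := natCast_cancel 2
    (by linear_combination (norm := noncomm_ring [lit]) c1 + c2)
  have a2 : d0 * d2 + d2 * d0 = 0 := natCast_cancel 2
    (by linear_combination (norm := noncomm_ring [lit]) c1 + c3)
  have a3 : d0 * d3 + d3 * d0 = 0 := natCast_cancel 2
    (by linear_combination (norm := noncomm_ring [lit]) c1 + c4)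
  have h0 : d0 * d0 + 1 = 0 := natCast_cancel 8
    (by linear_combination (norm := noncomm_ring [lit]) -(h1 + h2 + h3 + h4) - 4 * s0)
  have z12 : d1 * d2 = 0 := natCast_cancel 8
    (by linear_combination (norm := noncomm_ring [lit]) h1 - h2 - h3 + h4 + 4 * s3 - 4 * a3)
  have z23 : d2 * d3 = 0 := natCast_cancel 8
    (by linear_combination (norm := noncomm_ring [lit]) h1 + h2 - h3 - h4 + 4 * s1 - 4 * a1)
  have z31 : d3 * d1 = 0 := natCast_cancel 8
    (by linear_combination (norm := noncomm_ring [lit]) h1 - h2 + h3 - h4 + 4 * s2 - 4 * a2)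
  exact ⟨eq_neg_of_add_eq_zero_left h0, eq_neg_of_add_eq_zero_left a1,
    eq_neg_of_add_eq_zero_left a2, eq_neg_of_add_eq_zero_left a3, z12,
    by linear_combination (norm := noncomm_ring [lit]) z12 + a3 - s3, z23,
    by linear_combination (norm := noncomm_ring [lit]) z23 + a1 - s1, z31,
    by linear_combination (norm := noncomm_ring [lit]) z31 + a2 - s2,
    by linear_combination (norm := noncomm_ring [lit]) h0 - s0⟩

omit [Algebra ℚ D] [Nontrivial D] in
theorem qc_comm_sq {u v : D} (hu : u * u = u + 1) (hv : v * v = v + 1) :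
    (u * v - v * u) * (u * v - v * u) =
      (u * v + v * u - u - v) * (u * v + v * u - u - v) + (u * v + v * u - u - v) - 6 := by
  have hu' : ∀ x, u * (u * x) = u * x + x := fun x => by rw [← mul_assoc, hu, add_mul, one_mul]
  have hv' : ∀ x, v * (v * x) = v * x + x := fun x => by rw [← mul_assoc, hv, add_mul, one_mul]
  noncomm_ring [lit, hu, hv, hu', hv']

end CfsgH3
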