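import Mathlib
import Cfsg.Agent.H3.FCThree
import Cfsg.Agent.H3.QuatCalc

/-!
# Elements of order `3` of a Frobenius complement containing `SL(2,3)`
-/

set_option autoImplicit false

namespace CfsgH3

variable {G A : Type*} [Group G] [Ring A] [Algebra ℚ A] [Nontrivial A] {φ : G →* A}

omit [Nontrivial A] in
theorem Fpf.sq_of_cE (hφ : Fpf φ) {a b : G} (ha : orderOf a = 3) (hb : orderOf b = 3)
    (h : cE φ a b = 2) : φ (a * b) * φ (a * b) = -1 := by
  rw [hφ.cE_eq ha hb] at h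
  have h1 : φ (a * b) + φ (a * b)⁻¹ = 0 := natCast_cancel 4
    (by linear_combination (norm := noncomm_ring [lit]) -h)
  have h2 := map_mul_inv' φ (a * b)
  linear_combination (norm := noncomm_ring [lit]) φ (a * b) * h1 - h2

theorem Fpf.not_sq_of_comm (hφ : Fpf φ) {a b : G} (ha : orderOf a = 3) (hb : orderOf b = 3)
    (hab : a * b = b * a) (h : φ (a * b) * φ (a * b) = -1) : False := by
  have h1 : (a * b) ^ 3 = 1 := by
    rw [(show Commute a b from hab).mul_pow, (ha ▸ pow_orderOf_eq_one a : a ^ 3 = 1),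
      (hb ▸ pow_orderOf_eq_one b : b ^ 3 = 1), one_mul]
  have h2 := congrArg φ h1
  rw [map_pow, map_one] at h2
  generalize φ (a * b) = X at h h2
  have h3 : X = -1 := by linear_combination (norm := noncomm_ring [lit]) X * h - h2
  subst h3
  exact ofNat_ne_zero' (D := A) 2 (by linear_combination (norm := noncomm_ring [lit]) h)

theorem Fpf.not_comm (hφ : Fpf φ) {a b x : G} (ha : orderOf a = 3) (hb : orderOf b = 3)
    (hx : φ x * φ x = -1) (hxa : φ x * sE φ a = sE φ a * φ x) (hxb : φ x * sE φ b = sE φ b * φ x)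
    (h : cE φ a b = 2) : False := by
  have h1 := hφ.sq_of_cE ha hb h
  unfold sE at hxa hxb
  have h2 : φ x * φ a = φ a * φ x := sub_eq_zero.1 (natCast_cancel 2
    (by linear_combination (norm := noncomm_ring [lit]) hxa))
  have h3 : φ x * φ b = φ b * φ x := sub_eq_zero.1 (natCast_cancel 2
    (by linear_combination (norm := noncomm_ring [lit]) hxb))
  have h4 : φ x * φ (a * b) = φ (a * b) * φ x := by
    rw [map_mul, ← mul_assoc, h2, mul_assoc, h3, mul_assoc]
  have h5 : φ a * φ (a * b) = φ (a * b) * φ a := by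
    by_cases h6 : a * b = x
    · rw [h6, h2]
    · have h7 := hφ.reg h6 (a := φ (a * b) + φ x)
        (by linear_combination (norm := noncomm_ring [lit]) h1 - hx - h4)
      rw [eq_neg_of_add_eq_zero_left h7, mul_neg, neg_mul, h2]
  rw [← map_mul, ← map_mul] at h5
  have h6 := hφ.inj h5
  rw [mul_assoc, mul_right_inj] at h6
  exact hφ.not_sq_of_comm ha hb h6 h1

/-- two elements of order `3` generating `SL(2,3)` -/
structure Cfg (φ : G →* A) (a b : G) : Prop where
  fpf : Fpf φ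
  ha : orderOf a = 3
  hb : orderOf b = 3
  hab : φ (a * b) * φ (a * b) = -1

namespace Cfg

variable {a b : G} (c : Cfg φ a b)
include c

omit [Algebra ℚ A] [Nontrivial A] in
theorem aux : φ b * φ a * (φ b * φ a) = -1 ∧ φ a * φ b * (φ b * φ a) = φ a - φ b ∧
    φ b * φ a * (φ a * φ b) = φ b - φ a ∧ φ a * φ b + φ b * φ a = -φ a - φ b - 1 := by
  have hA := c.fpf.three c.ha
  have hB := c.fpf.three c.hb
  have h := c.hab
  rw [map_mul] at h
  generalize φ a = X at *
  generalize φ b = Y at *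
  have hA' : ∀ x, X * (X * x) = -(X * x) - x := fun x => by
    rw [← mul_assoc, hA]; noncomm_ring
  have hB' : ∀ x, Y * (Y * x) = -(Y * x) - x := fun x => by
    rw [← mul_assoc, hB]; noncomm_ring
  have h1 : X * (Y * X) = Y + 1 := by
    linear_combination (norm := noncomm_ring [lit, hA, hB, hA', hB']) h * (-Y - 1)
  have h2 : Y * (X * Y) = X + 1 := by
    linear_combination (norm := noncomm_ring [lit, hA, hB, hA', hB']) (-X - 1) * h
  refine ⟨?_, ?_, ?_, ?_⟩
  · linear_combination (norm := noncomm_ring [lit, hA, hB, hA', hB']) Y * h1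
  · linear_combination (norm := noncomm_ring [lit, hA, hB, hA', hB']) -h1
  · linear_combination (norm := noncomm_ring [lit, hA, hB, hA', hB']) -h2
  · linear_combination (norm := noncomm_ring [lit, hA, hB, hA', hB']) (-X - 1) * h1

/-- the quaternion units -/
def Q : QData A where
  I := φ (a * b)
  J := φ (b * a)
  hI := c.hab
  hJ := by rw [map_mul]; exact c.aux.1
  hJI := by rw [map_mul, map_mul, c.aux.2.1, c.aux.2.2.1, neg_sub]

omit [Nontrivial A] in
theorem sE_w : sE φ b⁻¹ = c.Q.q 0 1 1 1 := by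
  have h1 := c.aux.2.1
  have h2 := c.aux.2.2.2
  simp only [QData.q, Q, map_mul, sE, c.fpf.three_inv c.hb, ZeroMemClass.coe_zero,
    OneMemClass.coe_one, mul_one]
  linear_combination (norm := noncomm_ring [lit]) -h1 - h2

omit [Algebra ℚ A] [Nontrivial A] in
theorem map_inv_i : φ (a * b)⁻¹ = -c.Q.I := by
  have h1 := map_inv_mul' φ (a * b)
  have h2 := c.hab
  change _ = -φ (a * b)
  linear_combination (norm := noncomm_ring [lit]) φ (a * b)⁻¹ * h2 - h1 * φ (a * b)

omit [Algebra ℚ A] [Nontrivial A] in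
theorem map_inv_j : φ (b * a)⁻¹ = -c.Q.J := by
  have h1 := map_inv_mul' φ (b * a)
  have h2 : φ (b * a) * φ (b * a) = -1 := c.Q.hJ
  change _ = -φ (b * a)
  linear_combination (norm := noncomm_ring [lit]) φ (b * a)⁻¹ * h2 - h1 * φ (b * a)

variable {y : G} {d0 d1 d2 d3 : c.Q.D}

omit [Nontrivial A] in
theorem conj_i (h : sE φ y = c.Q.q d0 d1 d2 d3) :
    sE φ (a * b * y * (a * b)⁻¹) = c.Q.q d0 d1 (-d2) (-d3) := by
  rw [sE_conj, c.map_inv_i, h]
  change c.Q.I * _ * _ = _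
  rw [QData.q_I, QData.q_neg, QData.q_mul, QData.q_mul]
  congr 1 <;> simp

omit [Nontrivial A] in
theorem conj_j (h : sE φ y = c.Q.q d0 d1 d2 d3) :
    sE φ (b * a * y * (b * a)⁻¹) = c.Q.q d0 (-d1) d2 (-d3) := by
  rw [sE_conj, c.map_inv_j, h]
  change c.Q.J * _ * _ = _
  rw [QData.q_J, QData.q_neg, QData.q_mul, QData.q_mul]
  congr 1 <;> simp

omit [Nontrivial A] in
theorem conj_k (h : sE φ y = c.Q.q d0 d1 d2 d3) :
    sE φ (a * b * (b * a) * y * (a * b * (b * a))⁻¹) = c.Q.q d0 (-d1) (-d2) d3 := by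
  have := c.conj_i (c.conj_j h)
  rw [neg_neg] at this
  rw [← this]
  congr 1
  group

omit [Nontrivial A] in
theorem conj_w (h : sE φ y = c.Q.q d0 d1 d2 d3) :
    sE φ (b⁻¹ * y * b⁻¹⁻¹) = c.Q.q d0 d2 d3 d1 := by
  have hb' : orderOf b⁻¹ = 3 := by rw [orderOf_inv, c.hb]
  have h1 : 2 * φ b⁻¹ = c.Q.q (-1) 1 1 1 := by
    rw [← add_left_inj 1]
    change sE φ b⁻¹ = _
    rw [c.sE_w, c.Q.q_one, QData.q_add]
    simp
  have h2 : 2 * φ b⁻¹⁻¹ = c.Q.q (-1) (-1) (-1) (-1) := by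
    rw [← add_left_inj 1]
    change sE φ b⁻¹⁻¹ = _
    rw [c.fpf.sE_inv hb', c.sE_w, c.Q.q_one, QData.q_add, QData.q_neg]
    simp
  rw [← sub_eq_zero]
  apply natCast_cancel 4
  have h3 : 4 * (φ b⁻¹ * sE φ y * φ b⁻¹⁻¹) = (2 * φ b⁻¹) * sE φ y * (2 * φ b⁻¹⁻¹) := by
    noncomm_ring
  rw [sE_conj, mul_sub, h3, h1, h2, h, QData.q_mul, QData.q_mul, c.Q.q_ofNat 4, QData.q_mul,
    sub_eq_zero]
  congr 1 <;> noncomm_ring

omit [Nontrivial A] in
theorem sq_coords (hy : orderOf y = 3) (h : sE φ y = c.Q.q d0 d1 d2 d3) :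
    d0 * d0 - d1 * d1 - d2 * d2 - d3 * d3 = -3 ∧ d0 * d1 + d1 * d0 + d2 * d3 - d3 * d2 = 0 ∧
      d0 * d2 + d2 * d0 + d3 * d1 - d1 * d3 = 0 ∧ d0 * d3 + d3 * d0 + d1 * d2 - d2 * d1 = 0 := by
  have h1 := c.fpf.sE_sq hy
  rw [h, QData.q_mul, c.Q.q_ofNat 3, QData.q_neg] at h1
  simpa using c.Q.q_inj h1

theorem pair_w [Finite G] (hG : IsFC G) (hy : orderOf y = 3) (h : sE φ y = c.Q.q d0 d1 d2 d3)
    (h1 : y ≠ b) (h2 : y ≠ b⁻¹) :
    (d0 = 0 ∧ (d1 + d2 + d3 = 1 ∨ d1 + d2 + d3 = -1)) ∨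
      ((d1 + d2 + d3) * (d1 + d2 + d3) - 3 * (d0 * d0) = 5 ∧
        (d1 + d2 + d3) * d0 + d0 * (d1 + d2 + d3) = 0 ∧ orderOf (y * b⁻¹) = 10) := by
  have hb' : orderOf b⁻¹ = 3 := by rw [orderOf_inv, c.hb]
  have hc : cE φ y b⁻¹ = c.Q.q (2 * (d1 + d2 + d3)) (-(2 * d0)) (-(2 * d0)) (-(2 * d0)) := by
    rw [cE, h, c.sE_w, QData.q_mul, QData.q_mul, QData.q_add, QData.q_neg]
    congr 1 <;> noncomm_ring
  rcases c.fpf.pair hG hy hb' with h3 | h3 | h3 | h3 | ⟨h3, h4⟩
  · exact absurd (by simpa using h3) h1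
  · exact absurd h3 h2
  · rw [hc, c.Q.q_ofNat 2] at h3
    obtain ⟨e1, e2, -⟩ := c.Q.q_inj h3
    exact Or.inl ⟨natCast_cancel 2 (neg_eq_zero.1 e2), Or.inl (sub_eq_zero.1 (natCast_cancel 2
      (by linear_combination (norm := noncomm_ring [lit]) e1)))⟩
  · rw [hc, c.Q.q_ofNat 2, QData.q_neg] at h3
    obtain ⟨e1, e2, -⟩ := c.Q.q_inj h3
    exact Or.inl ⟨natCast_cancel 2 (neg_inj.1 e2), Or.inr (sub_eq_zero.1 (natCast_cancel 2
      (by linear_combination (norm := noncomm_ring [lit]) e1)))⟩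
  · rw [hc, c.Q.q_ofNat 20, QData.q_mul] at h3
    obtain ⟨e1, e2, -⟩ := c.Q.q_inj h3
    exact Or.inr ⟨sub_eq_zero.1 (natCast_cancel 4
      (by linear_combination (norm := noncomm_ring [lit]) e1)), natCast_cancel 4
      (by linear_combination (norm := noncomm_ring [lit]) -e2), h4⟩

theorem d1_eq_zero [Finite G] (hG : IsFC G) (hy : orderOf y = 3)
    (h : sE φ y = c.Q.q d0 d1 d2 d3) (r : QRel d0 d1 d2 d3) : d1 = 0 := by
  have hD : Nontrivial c.Q.D := inferInstance
  have hi := c.conj_i h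
  have hyi : orderOf (a * b * y * (a * b)⁻¹) = 3 := by rw [orderOf_conj', hy]
  have h0 := r.h0
  have hs := r.hs
  have h3 : d1 * (d1 * d1) = 2 * d1 := by
    linear_combination (norm := noncomm_ring [lit]) d1 * hs - r.z12 * d2 - r.z13 * d3
  have hc : cE φ y (a * b * y * (a * b)⁻¹) = c.Q.q (4 * (d1 * d1) - 2) 0 0 0 := by
    rw [cE, h, hi, QData.q_mul, QData.q_mul, QData.q_add, QData.q_neg]
    congr 1
    · linear_combination (norm := noncomm_ring [lit]) -2 * h0 - 2 * hs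
    · linear_combination (norm := noncomm_ring [lit]) -2 * r.a1 + 2 * r.z23 - 2 * r.z32
    · noncomm_ring
    · noncomm_ring
  have key : d1 * d1 = 1 → d1 = 0 := fun h4 => by
    linear_combination (norm := noncomm_ring [lit]) d1 * h4 - h3
  rcases c.fpf.pair hG hy hyi with h4 | h4 | h4 | h4 | ⟨h4, -⟩
  · have h5 := congrArg (sE φ) h4
    rw [c.fpf.sE_inv hyi, hi, h, QData.q_neg] at h5
    obtain ⟨e1, e2, -⟩ := c.Q.q_inj h5
    exact natCast_cancel 2 (by linear_combination (norm := noncomm_ring [lit]) e2)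
  · exfalso
    have h5 := congrArg (sE φ) h4
    rw [hi, h] at h5
    obtain ⟨-, -, e1, e2⟩ := c.Q.q_inj h5
    have e3 : d2 = 0 := natCast_cancel 2 (by linear_combination (norm := noncomm_ring [lit]) e1)
    have e4 : d3 = 0 := natCast_cancel 2 (by linear_combination (norm := noncomm_ring [lit]) e2)
    subst e3 e4
    have hj := c.conj_j h
    have hyj : orderOf (b * a * y * (b * a)⁻¹) = 3 := by rw [orderOf_conj', hy]
    have hy' : orderOf y⁻¹ = 3 := by rw [orderOf_inv, hy]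
    refine c.fpf.not_comm hy' hyj c.hab ?_ ?_ ?_
    · rw [c.fpf.sE_inv hy, h]
      change c.Q.I * _ = _ * c.Q.I
      rw [QData.q_I, QData.q_neg, QData.q_mul, QData.q_mul]
      simp
    · rw [hj]
      change c.Q.I * _ = _ * c.Q.I
      rw [QData.q_I, QData.q_mul, QData.q_mul]
      simp
    · rw [c.fpf.cE_inv hy, cE, neg_neg, h, hj, QData.q_mul, QData.q_mul, QData.q_add,
        c.Q.q_ofNat 2]
      congr 1
      · linear_combination (norm := noncomm_ring [lit]) 2 * h0 + 2 * hs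
      · noncomm_ring
      · simp
      · simp
  · rw [hc, c.Q.q_ofNat 2] at h4
    obtain ⟨e1, -⟩ := c.Q.q_inj h4
    exact key (sub_eq_zero.1 (natCast_cancel 4
      (by linear_combination (norm := noncomm_ring [lit]) e1)))
  · rw [hc, c.Q.q_ofNat 2, QData.q_neg] at h4
    obtain ⟨e1, -⟩ := c.Q.q_inj h4
    have e2 : d1 * d1 = 0 := natCast_cancel 4
      (by linear_combination (norm := noncomm_ring [lit]) e1)
    exact natCast_cancel 2 (by linear_combination (norm := noncomm_ring [lit]) d1 * e2 - h3)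
  · rw [hc, c.Q.q_ofNat 20, QData.q_mul] at h4
    obtain ⟨e1, -⟩ := c.Q.q_inj h4
    exact key (sub_eq_zero.1 (natCast_cancel 16
      (by linear_combination (norm := noncomm_ring [lit]) e1 - 16 * d1 * h3)))

theorem not_qrel [Finite G] (hG : IsFC G) (hy : orderOf y = 3)
    (h : sE φ y = c.Q.q d0 d1 d2 d3) (r : QRel d0 d1 d2 d3) : False := by
  have h1 := c.conj_w h
  have h2 := c.conj_w h1
  have e1 := c.d1_eq_zero hG hy h r
  have e2 := c.d1_eq_zero hG (by rw [orderOf_conj', hy]) h1 r.shift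
  have e3 := c.d1_eq_zero hG (by rw [orderOf_conj', orderOf_conj', hy]) h2 r.shift.shift
  have := r.hs
  rw [e1, e2, e3] at this
  exact ofNat_ne_zero' (D := c.Q.D) 2 (by simpa using this.symm)

/-- the eight elements of order `3` of `SL(2,3)` -/
def Small (a b y : G) : Prop :=
  ∃ x : G, (x = 1 ∨ x = a * b ∨ x = b * a ∨ x = a * b * (b * a)) ∧
    (x * y * x⁻¹ = b ∨ x * y * x⁻¹ = b⁻¹)

theorem classify [Finite G] (hG : IsFC G) (hy : orderOf y = 3)
    (h : sE φ y = c.Q.q d0 d1 d2 d3) (hs : ¬ Small a b y) :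
    (∃ y' : G, orderOf y' = 3 ∧ orderOf (y' * b⁻¹) = 10) ∧ d0 = 0 ∧
      d1 * d1 + d2 * d2 + d3 * d3 = 3 ∧
      ((d1 = 0 ∧ PM d2 d3) ∨ (d2 = 0 ∧ PM d3 d1) ∨ (d3 = 0 ∧ PM d1 d2)) := by
  have hD : Nontrivial c.Q.D := inferInstance
  have ns : ∀ x : G, (x = 1 ∨ x = a * b ∨ x = b * a ∨ x = a * b * (b * a)) →
      x * y * x⁻¹ ≠ b ∧ x * y * x⁻¹ ≠ b⁻¹ := fun x hx =>
    ⟨fun h => hs ⟨x, hx, Or.inl h⟩, fun h => hs ⟨x, hx, Or.inr h⟩⟩
  have ho : ∀ x : G, orderOf (x * y * x⁻¹) = 3 := fun x => by rw [orderOf_conj', hy]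
  have n1 := ns 1 (by simp)
  simp only [one_mul, inv_one, mul_one] at n1
  have p1 := c.pair_w hG hy h n1.1 n1.2
  have p2 := c.pair_w hG (ho _) (c.conj_i h) (ns _ (by simp)).1 (ns _ (by simp)).2
  have p3 := c.pair_w hG (ho _) (c.conj_j h) (ns _ (by simp)).1 (ns _ (by simp)).2
  have p4 := c.pair_w hG (ho _) (c.conj_k h) (ns _ (by simp)).1 (ns _ (by simp)).2
  simp only [← sub_eq_add_neg] at p2 p3 p4
  obtain ⟨s0, s1, s2, s3⟩ := c.sq_coords hy h
  have hd0 : d0 = 0 := by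
    by_contra hd
    obtain ⟨a1, c1, -⟩ := p1.resolve_left fun h => hd h.1
    obtain ⟨a2, c2, -⟩ := p2.resolve_left fun h => hd h.1
    obtain ⟨a3, c3, -⟩ := p3.resolve_left fun h => hd h.1
    obtain ⟨a4, c4, -⟩ := p4.resolve_left fun h => hd h.1
    exact c.not_qrel hG hy h (qc_five s0 s1 s2 s3 a1 a2 a3 a4 c1 c2 c3 c4)
  subst hd0
  have hsq : d1 * d1 + d2 * d2 + d3 * d3 = 3 := by
    linear_combination (norm := noncomm_ring [lit]) -s0
  refine ⟨?_, rfl, hsq, qc_zero hsq (p1.imp And.right fun h => by simpa using h.1)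
    (p2.imp And.right fun h => by simpa using h.1) (p3.imp And.right fun h => by simpa using h.1)
    (p4.imp And.right fun h => by simpa using h.1)⟩
  by_contra hcon
  push Not at hcon
  have sq : ∀ m : c.Q.D, (m = 1 ∨ m = -1) → m * m = 1 := by rintro m (rfl | rfl) <;> simp
  have q1 := sq _ (p1.resolve_right fun h => hcon _ hy h.2.2).2
  have q2 := sq _ (p2.resolve_right fun h => hcon _ (ho _) h.2.2).2
  have q3 := sq _ (p3.resolve_right fun h => hcon _ (ho _) h.2.2).2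
  have q4 := sq _ (p4.resolve_right fun h => hcon _ (ho _) h.2.2).2
  exact ofNat_ne_zero' (D := c.Q.D) 8
    (by linear_combination (norm := noncomm_ring [lit]) q1 + q2 + q3 + q4 - 4 * hsq)

/-- standard position -/
def Std (y : G) : Prop := ∃ u : c.Q.D, u * u = u + 1 ∧ sE φ y = c.Q.q 0 0 u (1 - u)

omit [Nontrivial A] in
theorem std_of_pm (K : Subgroup G) (haK : a ∈ K) (hbK : b ∈ K)
    (h : sE φ y = c.Q.q 0 0 d2 d3) (hsq : d2 * d2 + d3 * d3 = 3) (hpm : PM d2 d3) :
    ∃ g ∈ K, c.Std (g * y * g⁻¹) := by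
  have key : ∀ {u v : c.Q.D} {z : G}, sE φ z = c.Q.q 0 0 u v → u * u + v * v = 3 → u + v = 1 →
      c.Std z := by
    intro u v z h1 h2 h3
    obtain rfl : v = 1 - u := eq_sub_of_add_eq' h3
    exact ⟨u, sub_eq_zero.1 (natCast_cancel 2
      (by linear_combination (norm := noncomm_ring [lit]) h2)), h1⟩
  rcases hpm with h1 | h1 | h1 | h1
  · exact ⟨1, one_mem _, key (by simpa using h) hsq h1⟩
  · exact ⟨_, mul_mem haK hbK, key (c.conj_i h) (by simpa using hsq)
      (by linear_combination (norm := noncomm_ring [lit]) -h1)⟩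
  · exact ⟨_, mul_mem hbK haK, key (by simpa using c.conj_j h) (by simpa using hsq)
      (by linear_combination (norm := noncomm_ring [lit]) h1)⟩
  · exact ⟨_, mul_mem (mul_mem haK hbK) (mul_mem hbK haK), key (by simpa using c.conj_k h)
      (by simpa using hsq) (by linear_combination (norm := noncomm_ring [lit]) -h1)⟩

theorem exists_std [Finite G] (hG : IsFC G) (K : Subgroup G) (haK : a ∈ K) (hbK : b ∈ K)
    (hy : orderOf y = 3) (hs : ¬ Small a b y) : ∃ g ∈ K, c.Std (g * y * g⁻¹) := by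
  obtain ⟨d0, d1, d2, d3, h⟩ := c.Q.q_surj (sE φ y)
  obtain ⟨-, rfl, hsq, ⟨rfl, h1⟩ | ⟨rfl, h1⟩ | ⟨rfl, h1⟩⟩ := c.classify hG hy h hs
  · exact c.std_of_pm K haK hbK h (by simpa using hsq) h1
  · obtain ⟨g, hg, h2⟩ := c.std_of_pm K haK hbK (c.conj_w h) (by simpa [add_comm] using hsq) h1
    refine ⟨g * b⁻¹, mul_mem hg (inv_mem hbK), ?_⟩
    convert h2 using 1
    group
  · obtain ⟨g, hg, h2⟩ := c.std_of_pm K haK hbK (c.conj_w (c.conj_w h))
      (by simpa using hsq) h1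
    refine ⟨g * b⁻¹ * b⁻¹, mul_mem (mul_mem hg (inv_mem hbK)) (inv_mem hbK), ?_⟩
    convert h2 using 1
    simp only [mul_inv_rev, inv_inv, mul_assoc]

theorem std_unique [Finite G] (hG : IsFC G) {y₁ y₂ : G} (hy₁ : orderOf y₁ = 3)
    (hy₂ : orderOf y₂ = 3) (h₁ : c.Std y₁) (h₂ : c.Std y₂) : y₁ = y₂ := by
  have hD : Nontrivial c.Q.D := inferInstance
  obtain ⟨u, hu, h₁⟩ := h₁
  obtain ⟨v, hv, h₂⟩ := h₂
  suffices u = v from c.fpf.sE_inj (by rw [h₁, h₂, this])
  by_contra huv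
  have ho : ∀ x : G, orderOf (x * y₂ * x⁻¹) = 3 := fun x => by rw [orderOf_conj', hy₂]
  have hk := qc_comm_sq hu hv
  -- second variation
  have ht : (u * v + v * u - u - v) * (u * v + v * u - u - v) = 4 := by
    have hj := c.conj_j h₂
    have hc : cE φ y₁ (b * a * y₂ * (b * a)⁻¹) =
        c.Q.q (2 * (u + v - 1)) (-(2 * (u * v - v * u))) 0 0 := by
      rw [cE, h₁, hj, QData.q_mul, QData.q_mul, QData.q_add, QData.q_neg]
      congr 1 <;> noncomm_ring [lit]
    rcases c.fpf.pair hG hy₁ (ho (b * a)) with h4 | h4 | h4 | h4 | ⟨h4, -⟩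
    · have h5 := congrArg (sE φ) h4
      rw [c.fpf.sE_inv (ho _), hj, h₁, QData.q_neg] at h5
      obtain ⟨-, -, -, e⟩ := c.Q.q_inj h5
      exact absurd (by simpa using e) huv
    · have h5 := congrArg (sE φ) h4
      rw [hj, h₁] at h5
      exact absurd (c.Q.q_inj h5).2.2.1 huv
    · rw [hc, c.Q.q_ofNat 2] at h4
      obtain ⟨e1, -⟩ := c.Q.q_inj h4
      obtain rfl : v = 2 - u := sub_eq_zero.1 (natCast_cancel 2
        (by linear_combination (norm := noncomm_ring [lit]) e1))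
      obtain rfl : u = 1 := sub_eq_zero.1 (natCast_cancel 2
        (by linear_combination (norm := noncomm_ring [lit]) hu - hv))
      simp at hu
    · rw [hc, c.Q.q_ofNat 2, QData.q_neg] at h4
      obtain ⟨e1, -⟩ := c.Q.q_inj h4
      obtain rfl : v = -u := sub_eq_zero.1 (natCast_cancel 2
        (by linear_combination (norm := noncomm_ring [lit]) e1))
      obtain rfl : u = 0 := natCast_cancel 2
        (by linear_combination (norm := noncomm_ring [lit]) hv - hu)
      simp at hu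
    · rw [hc, c.Q.q_ofNat 20, QData.q_mul] at h4
      obtain ⟨e1, -⟩ := c.Q.q_inj h4
      exact sub_eq_zero.1 (natCast_cancel 4
        (by linear_combination (norm := noncomm_ring [lit]) 4 * hu + 4 * hv - 4 * hk - e1))
  -- first variation
  have ht2 : u * v + v * u - u - v = -2 := by
    have hc : cE φ y₁ y₂ = c.Q.q (2 * (u * v + v * u - u - v + 1)) 0 0 0 := by
      rw [cE, h₁, h₂, QData.q_mul, QData.q_mul, QData.q_add, QData.q_neg]
      congr 1 <;> noncomm_ring [lit]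
    generalize u * v + v * u - u - v = t at ht hc ⊢
    have key : t ≠ 0 := fun h => ofNat_ne_zero' (D := c.Q.D) 4 (by rw [← ht, h, mul_zero])
    rcases c.fpf.pair hG hy₁ hy₂ with h4 | h4 | h4 | h4 | ⟨h4, -⟩
    · have h5 := congrArg (sE φ) h4
      rw [c.fpf.sE_inv hy₂, h₂, h₁, QData.q_neg] at h5
      obtain ⟨-, -, e1, e2⟩ := c.Q.q_inj h5
      exact absurd (by linear_combination (norm := noncomm_ring [lit]) e1 + e2)
        (ofNat_ne_zero' (D := c.Q.D) 2)
    · have h5 := congrArg (sE φ) h4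
      rw [h₂, h₁] at h5
      exact absurd (c.Q.q_inj h5).2.2.1 huv
    · rw [hc, c.Q.q_ofNat 2] at h4
      obtain ⟨e1, -⟩ := c.Q.q_inj h4
      exact absurd (natCast_cancel 2 (by linear_combination (norm := noncomm_ring [lit]) e1)) key
    · rw [hc, c.Q.q_ofNat 2, QData.q_neg] at h4
      obtain ⟨e1, -⟩ := c.Q.q_inj h4
      exact sub_eq_zero.1 (natCast_cancel 2
        (by linear_combination (norm := noncomm_ring [lit]) e1))
    · rw [hc, c.Q.q_ofNat 20, QData.q_mul] at h4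
      obtain ⟨e1, -⟩ := c.Q.q_inj h4
      exact absurd (natCast_cancel 8
        (by linear_combination (norm := noncomm_ring [lit]) e1 - 4 * ht)) key
  -- third variation
  rw [ht2] at hk
  have hw := c.conj_w h₂
  have hc : cE φ y₁ (b⁻¹ * y₂ * b⁻¹⁻¹) =
      c.Q.q (u - v + 2) (u * v - v * u) (u * v - v * u) (u * v - v * u) := by
    rw [cE, h₁, hw, QData.q_mul, QData.q_mul, QData.q_add, QData.q_neg]
    congr 1
    · linear_combination (norm := noncomm_ring [lit]) -ht2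
    all_goals noncomm_ring [lit]
  have hv0 : v ≠ 0 := by rintro rfl; simp at hv
  have hk0 : u * v - v * u ≠ 0 := fun h => ofNat_ne_zero' (D := c.Q.D) 4 (by
    rw [h] at hk
    linear_combination (norm := noncomm_ring [lit]) hk)
  rcases c.fpf.pair hG hy₁ (ho b⁻¹) with h4 | h4 | h4 | h4 | ⟨h4, -⟩
  · have h5 := congrArg (sE φ) h4
    rw [c.fpf.sE_inv (ho _), hw, h₁, QData.q_neg] at h5
    exact hv0 (by simpa using (c.Q.q_inj h5).2.1)
  · have h5 := congrArg (sE φ) h4
    rw [hw, h₁] at h5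
    exact hv0 (c.Q.q_inj h5).2.1.symm
  · rw [hc, c.Q.q_ofNat 2] at h4
    exact hk0 (c.Q.q_inj h4).2.1
  · rw [hc, c.Q.q_ofNat 2, QData.q_neg] at h4
    exact hk0 (by simpa using (c.Q.q_inj h4).2.1)
  · rw [hc, c.Q.q_ofNat 20, QData.q_mul] at h4
    obtain ⟨e1, -⟩ := c.Q.q_inj h4
    exact huv (sub_eq_zero.1 (natCast_cancel 4
      (by linear_combination (norm := noncomm_ring [lit]) e1 + 3 * hk - hu - hv + ht2)))

/-- every element of order `3` lies in a subgroup containing `a`, `b` and one further element of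
order `3` -/
theorem mem_of_three [Finite G] (hG : IsFC G) (K : Subgroup G) (haK : a ∈ K) (hbK : b ∈ K)
    {x : G} (hxK : x ∈ K) (hx : orderOf x = 3) (hxs : ¬ Small a b x) (hy : orderOf y = 3) :
    y ∈ K := by
  have key : ∀ g ∈ K, g * y * g⁻¹ ∈ K → y ∈ K := fun g hg h => by
    have := mul_mem (mul_mem (inv_mem hg) h) hg
    simpa [mul_assoc] using this
  by_cases hs : Small a b y
  · obtain ⟨g, hg, h⟩ := hs
    refine key g ?_ ?_
    · rcases hg with rfl | rfl | rfl | rfl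
      · exact one_mem _
      · exact mul_mem haK hbK
      · exact mul_mem hbK haK
      · exact mul_mem (mul_mem haK hbK) (mul_mem hbK haK)
    · rcases h with h | h <;> rw [h]
      · exact hbK
      · exact inv_mem hbK
  · obtain ⟨g, hg, h1⟩ := c.exists_std hG K haK hbK hy hs
    obtain ⟨g', hg', h2⟩ := c.exists_std hG K haK hbK hx hxs
    refine key g hg ?_
    rw [c.std_unique hG (by rw [orderOf_conj', hy]) (by rw [orderOf_conj', hx]) h1 h2]
    exact mul_mem (mul_mem hg' hxK) (inv_mem hg')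

theorem small_of_no_ten [Finite G] (hG : IsFC G)
    (h10 : ∀ x y : G, orderOf x = 3 → orderOf y = 3 → orderOf (x * y) ≠ 10)
    (hy : orderOf y = 3) : Small a b y := by
  by_contra hs
  obtain ⟨d0, d1, d2, d3, h⟩ := c.Q.q_surj (sE φ y)
  obtain ⟨⟨y', h1, h2⟩, -⟩ := c.classify hG hy h hs
  exact h10 _ _ h1 (by rw [orderOf_inv, c.hb]) h2

end Cfg

end CfsgH3
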