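import Mathlib
import Cfsg.Agent.H3.FCThree2
import Cfsg.Agent.H3.FCSolv
import Cfsg.Agent.H3.SL25Rec
import Cfsg.Agent.H3.SL25Frob
import Cfsg.Agent.H6.FrobCompl
import Cfsg.Agent.H8.StabChainAut
import Cfsg.Agent.L.Char5

/-!
# A non-solvable Frobenius complement contains two elements of order `3` with product of order `10`
-/

set_option autoImplicit false

namespace CfsgH3

open QuaternionGroup
open scoped Pointwise

theorem aut_apply_eq_of_two {X : Type*} [Group X] [Finite X] (α : MulAut X)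
    (hα : (orderOf α).Coprime 2) {x : X} {n : ℕ} (hx : orderOf x = 2 ^ n)
    (h : α x ∈ Subgroup.zpowers x) : α x = x := by
  obtain ⟨m, hm⟩ := (mem_powers_iff_mem_zpowers.2 h : α x ∈ Submonoid.powers x)
  simp only at hm
  have h1 : ∀ k : ℕ, (α ^ k) x = x ^ m ^ k := by
    intro k
    induction k with
    | zero => simp
    | succ k ih => rw [pow_succ', MulAut.mul_apply, ih, map_pow, ← hm, ← pow_mul, pow_succ']
  have h2 : (orderOf x).Coprime m := by
    have h3 : orderOf (x ^ m) = orderOf x := by rw [hm, MulEquiv.orderOf_eq]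
    rw [orderOf_pow] at h3
    have h4 := Nat.div_mul_cancel (Nat.gcd_dvd_left (orderOf x) m)
    rw [h3] at h4
    exact (Nat.mul_eq_left (orderOf_pos x).ne').1 h4
  have h3 : α ^ (orderOf x).totient ∈ MulAction.stabilizer (MulAut X) x := by
    change (α ^ _) x = x
    rw [h1]
    conv_rhs => rw [← pow_one x]
    exact pow_eq_pow_iff_modEq.2 (Nat.ModEq.pow_totient h2.symm)
  have h4 : (orderOf x).totient.Coprime (orderOf α) := by
    rw [hx]
    rcases n with _ | n
    · simp
    · rw [Nat.totient_prime_pow_succ Nat.prime_two]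
      simpa using hα.symm.pow_left n
  obtain ⟨k, hk⟩ := exists_pow_eq_self_of_coprime h4
  have h5 := Subgroup.pow_mem _ h3 k
  rw [hk] at h5
  exact h5

theorem aut_quaternion_eq_one {n : ℕ} (hn : 1 ≤ n) (β : MulAut (QuaternionGroup (2 ^ n)))
    (h2 : (orderOf β).Coprime 2) (h3 : (orderOf β).Coprime 3) : β = 1 := by
  have : NeZero (2 ^ n) := ⟨by positivity⟩
  rcases hn.eq_or_lt with rfl | hn
  · have h4 : orderOf β ∣ 24 := CfsgH8.card_mulAut_q8 ▸ orderOf_dvd_natCard β
    have h5 : (orderOf β).Coprime 24 := by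
      rw [show 24 = 2 ^ 3 * 3 by norm_num]
      exact (h2.pow_right 3).mul_right h3
    exact orderOf_eq_one_iff.1 (Nat.eq_one_of_dvd_coprimes h5 dvd_rfl h4)
  have hA : ∀ i : ZMod (2 * 2 ^ n), (a i : QuaternionGroup (2 ^ n)) = a 1 ^ i.val := fun i => by
    rw [a_one_pow, ZMod.natCast_zmod_val]
  have ha : β (a 1) = a 1 := by
    refine aut_apply_eq_of_two β h2 (n := n + 1) (by rw [orderOf_a_one, pow_succ']) ?_
    have h4 : orderOf (β (a 1)) = 2 * 2 ^ n := by rw [MulEquiv.orderOf_eq, orderOf_a_one]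
    rcases hb : β (a 1) with i | i
    · rw [hA i]; exact Subgroup.pow_mem _ (Subgroup.mem_zpowers _) _
    · rw [hb, orderOf_xa] at h4
      have : 2 ^ 2 ≤ 2 ^ n := Nat.pow_le_pow_right two_pos hn
      omega
  have ha' : ∀ i, β (a i) = a i := fun i => by rw [hA, map_pow, ha]
  have hx : β (xa 0) = xa 0 := by
    rcases hb : β (xa 0) with j | j
    · rw [← ha' j] at hb
      exact absurd (β.injective hb) (by simp)
    · have h4 : (xa 0)⁻¹ * β (xa 0) = a j := by
        rw [hb, inv_mul_eq_iff_eq_mul]; simp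
      have h5 := CfsgH8.aut_pow_apply_of_fix β (Subgroup.zpowers (a j)) (by
        rintro _ ⟨k, rfl⟩; simp only [map_zpow, ha']) (xa 0)
        (by rw [h4]; exact Subgroup.mem_zpowers _) (orderOf β)
      rw [pow_orderOf_eq_one, h4, MulAut.one_apply, left_eq_mul] at h5
      have h6 : (a j : QuaternionGroup (2 ^ n)) ^ (2 ^ (n + 1)) = 1 := by
        have h8 := pow_orderOf_eq_one (a 1 : QuaternionGroup (2 ^ n))
        rw [orderOf_a_one] at h8
        rw [hA j, ← pow_mul, mul_comm j.val, pow_mul, pow_succ' 2 n, h8, one_pow]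
      have h7 : (a j : QuaternionGroup (2 ^ n)) = 1 := orderOf_eq_one_iff.1
        (Nat.eq_one_of_dvd_coprimes (h2.pow_right (n + 1)) (orderOf_dvd_of_pow_eq_one h5)
          (orderOf_dvd_of_pow_eq_one h6))
      rw [← hb, ← inv_mul_eq_one, ← inv_eq_one, mul_inv_rev, inv_inv, h4, h7]
  ext x
  rcases x with i | i
  · exact ha' i
  · have : (xa i : QuaternionGroup (2 ^ n)) = xa 0 * a i := by simp
    rw [this, map_mul, hx, ha']; rfl

variable {G : Type*} [Group G] [Finite G]

theorem IsFC.aut_eq_one (hG : IsFC G) (hp : IsPGroup 2 G) (α : MulAut G)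
    (h2 : (orderOf α).Coprime 2) (h3 : (orderOf α).Coprime 3) : α = 1 := by
  rcases hG.cyclic_or_quaternion hp with h1 | ⟨-, n, hn, ⟨e⟩⟩
  · obtain ⟨x, hx⟩ := IsCyclic.exists_generator (α := G)
    obtain ⟨n, hn⟩ := (IsPGroup.iff_orderOf.1 hp) x
    have h4 := aut_apply_eq_of_two α h2 hn (hx _)
    ext y
    obtain ⟨k, rfl⟩ := hx y
    simp [h4]
  · have h4 : orderOf (MulAut.congr e α) = orderOf α := MulEquiv.orderOf_eq _ _
    exact (MulAut.congr e).injective (by
      rw [map_one]; exact aut_quaternion_eq_one hn _ (h4 ▸ h2) (h4 ▸ h3))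

theorem IsFC.solvable_of_no_three (hG : IsFC G) (h : ∀ y : G, orderOf y ≠ 3) :
    Group.IsSolvable G := by
  have h3 : ∀ g : G, (orderOf g).Coprime 3 := fun g => by
    rw [Nat.coprime_comm, Nat.prime_three.coprime_iff_not_dvd]
    intro hd
    exact h _ (orderOf_pow_orderOf_div (orderOf_pos g).ne' hd)
  have hF : CfsgH6.FrobHyp 2 (⊤ : Subgroup G) := by
    intro X _ hX g _ hg hn
    have h4 : orderOf (X.normalizerMonoidHom ⟨g, hn⟩) ∣ orderOf g :=
      (orderOf_map_dvd _ _).trans (by rw [Subgroup.orderOf_mk])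
    have h5 := (hG.subgroup X).aut_eq_one hX _ (hg.coprime_dvd_left h4)
      ((h3 g).coprime_dvd_left h4)
    intro x hx
    have h6 := congrArg Subtype.val (DFunLike.congr_fun h5 ⟨x, hx⟩)
    exact (mul_inv_eq_iff_eq_mul.1 h6).symm
  have hN := hF.pNil
  have : hN.compl.Normal := ⟨fun x hx g => ⟨trivial, by rw [orderOf_conj']; exact hx.2⟩⟩
  refine solvable_of_normal_quotient hN.compl ?_ ?_
  · have := (hG.subgroup hN.compl).isZGroup_of_odd
      (Nat.coprime_two_right.1 (hN.coprime_card_compl Nat.prime_two))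
    infer_instance
  · have h5 : IsPGroup 2 (G ⧸ hN.compl) := by
      intro x
      obtain ⟨x, rfl⟩ := QuotientGroup.mk_surjective x
      obtain ⟨k, hk⟩ := hN.pow_mem_compl Nat.prime_two x trivial
      exact ⟨k, by rw [← QuotientGroup.mk_pow, QuotientGroup.eq_one_iff]; exact hk⟩
    have := h5.isNilpotent
    infer_instance

omit [Finite G] in
theorem hom_eq_one_of_perfect (hp : commutator G = ⊤) {H : Type*} [Group H]
    (hH : Group.IsSolvable H) (f : G →* H) (g : G) : f g = 1 := by
  by_contra h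
  have h1 : f.range ≠ ⊥ := fun h2 => h (by
    have : f g ∈ f.range := ⟨g, rfl⟩
    rwa [h2] at this)
  have h2 := Group.IsSolvable.commutator_lt_of_ne_bot h1
  rw [f.range_eq_map, ← Subgroup.map_commutator, ← commutator_def, hp] at h2
  exact lt_irrefl _ h2

theorem IsFC.not_normal_three (hG : IsFC G) (hp : commutator G = ⊤) {y : G} (hy : orderOf y = 3)
    (hn : (Subgroup.zpowers y).Normal) : False := by
  have hc : ∀ g : G, y * g = g * y := fun g =>
    commutator_le_centralizer_of_cyclic (Subgroup.zpowers y) (hp ▸ Subgroup.mem_top g) y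
      (Subgroup.mem_zpowers y)
  have : Fact (Nat.Prime 3) := ⟨Nat.prime_three⟩
  obtain ⟨R⟩ : Nonempty (Sylow 3 G) := inferInstance
  have hR : IsCyclic R := hG.isCyclic_of_odd (by norm_num) _ R.2
  let _ : CommGroup R := IsCyclic.commGroup
  have h1 := MonoidHom.transfer_eq_pow (MonoidHom.id R) y (fun k g _ => by
    rw [mul_assoc, ((show Commute y g from hc g).pow_left k).eq, inv_mul_cancel_left])
  rw [hom_eq_one_of_perfect hp inferInstance] at h1
  have h2 : y ^ (R : Subgroup G).index = 1 := (congrArg Subtype.val h1).symm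
  have h3 := orderOf_dvd_of_pow_eq_one h2
  rw [hy] at h3
  exact R.not_dvd_index h3

theorem solvable_perm_fin {n : ℕ} (hn : n ≤ 4) : Group.IsSolvable (Equiv.Perm (Fin n)) := by
  refine CfsgL.burnside_pq Nat.prime_two Nat.prime_three fun r hr hd => ?_
  rw [Nat.card_perm, Nat.card_fin, hr.dvd_factorial] at hd
  have h1 : r ≤ 4 := hd.trans hn
  have h2 := hr.two_le
  interval_cases r
  · exact Or.inl rfl
  · exact Or.inr rfl
  · exact absurd hr (by norm_num)

theorem IsFC.not_few_three (hG : IsFC G) (hp : commutator G = ⊤) {y : G} (hy : orderOf y = 3)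
    (S : Finset (Subgroup G)) (hS : S.card ≤ 4)
    (h : ∀ x : G, orderOf x = 3 → Subgroup.zpowers x ∈ S) : False := by
  classical
  have := Fintype.ofFinite G
  let T : Finset (Subgroup G) :=
    (Finset.univ.filter fun x : G => orderOf x = 3).image Subgroup.zpowers
  have hT : T ⊆ S := by
    intro X hX
    obtain ⟨x, hx, rfl⟩ := Finset.mem_image.1 hX
    exact h x (Finset.mem_filter.1 hx).2
  obtain ⟨f, hf⟩ := exists_perm_hom_of_finset (G := MulAut G) T _ rfl (fun β X hX => by
    obtain ⟨x, hx, rfl⟩ := Finset.mem_image.1 hX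
    refine Finset.mem_image.2 ⟨β x, Finset.mem_filter.2 ⟨Finset.mem_univ _, ?_⟩, ?_⟩
    · rw [MulEquiv.orderOf_eq]; exact (Finset.mem_filter.1 hx).2
    · exact (MonoidHom.map_zpowers (β : G →* G) x).symm)
  refine hG.not_normal_three hp hy ⟨fun x hx g => ?_⟩
  have h1 := hf _ (hom_eq_one_of_perfect hp (solvable_perm_fin ((Finset.card_le_card hT).trans hS))
    (f.comp MulAut.conj) g) (Subgroup.zpowers y)
    (Finset.mem_image.2 ⟨y, Finset.mem_filter.2 ⟨Finset.mem_univ _, hy⟩, rfl⟩)
  rw [← h1]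
  exact Subgroup.smul_mem_pointwise_smul _ _ _ hx

theorem IsFC.exists_ten_of_perfect (hG : IsFC G) (hp : commutator G = ⊤) [Nontrivial G] :
    ∃ a b : G, orderOf a = 3 ∧ orderOf b = 3 ∧ orderOf (a * b) = 10 := by
  classical
  by_contra hcon
  push Not at hcon
  obtain ⟨A, _, _, _, φ, hφ⟩ := hG.exists_fpf
  by_cases h1 : ∃ a b : G, orderOf a = 3 ∧ orderOf b = 3 ∧ cE φ a b = 2
  · obtain ⟨a, b, ha, hb, hab⟩ := h1
    have c : Cfg φ a b := ⟨hφ, ha, hb, hφ.sq_of_cE ha hb hab⟩
    refine hG.not_few_three hp ha (({1, a * b, b * a, a * b * (b * a)} : Finset G).image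
      fun x => Subgroup.zpowers (x⁻¹ * b * x)) (Finset.card_image_le.trans Finset.card_le_four)
      fun y hy => ?_
    obtain ⟨x, hx, h2⟩ := c.small_of_no_ten hG hcon hy
    refine Finset.mem_image.2 ⟨x, by simpa using hx, ?_⟩
    rcases h2 with h2 | h2
    · rw [← h2]; congr 1; group
    · rw [← Subgroup.zpowers_inv, ← inv_inv b, ← h2]; congr 1; group
  · push Not at h1
    by_cases h2 : ∃ y : G, orderOf y = 3
    · obtain ⟨y, hy⟩ := h2
      refine hG.not_few_three hp hy {Subgroup.zpowers y} (by simp) fun x hx => ?_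
      rw [Finset.mem_singleton]
      rcases hφ.pair hG hx hy with h | h | h | h | h
      · rw [h, Subgroup.zpowers_inv]
      · rw [h]
      · exact absurd h (h1 _ _ hx hy)
      · exact absurd (by rw [hφ.cE_inv hx, h, neg_neg]) (h1 x⁻¹ y (by rw [orderOf_inv, hx]) hy)
      · exact absurd h.2 (hcon _ _ hx hy)
    · push Not at h2
      obtain ⟨g, hg⟩ := exists_ne (1 : G)
      exact hg (hom_eq_one_of_perfect hp (hG.solvable_of_no_three h2) (MonoidHom.id G) g)

theorem IsFC.exists_ten (hG : IsFC G) (hns : ¬ Group.IsSolvable G) :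
    ∃ a b : G, orderOf a = 3 ∧ orderOf b = 3 ∧ orderOf (a * b) = 10 := by
  rw [Group.isSolvable_iff_commutator_lt] at hns
  push Not at hns
  obtain ⟨H, hH, h1⟩ := hns
  have h2 : ⁅H, H⁆ = H := eq_of_le_of_not_lt (Subgroup.commutator_le_self H) h1
  have : Nontrivial H := (Subgroup.nontrivial_iff_ne_bot H).2 hH
  have h3 : commutator H = ⊤ := by
    apply Subgroup.map_injective H.subtype_injective
    rw [H.map_subtype_commutator, h2, ← MonoidHom.range_eq_map, Subgroup.range_subtype]
  obtain ⟨a, b, ha, hb, hab⟩ := (hG.subgroup H).exists_ten_of_perfect h3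
  exact ⟨a, b, by simpa using ha, by simpa using hb, by
    rw [← Subgroup.coe_mul, Subgroup.orderOf_coe, hab]⟩

end CfsgH3
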