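import Mathlib
import Cfsg.Agent.H3.FCPerfect

/-!
# Non-solvable Frobenius complements (Zassenhaus)
-/

set_option autoImplicit false

namespace CfsgH3

open MatrixGroups

set_option maxRecDepth 100000 in
theorem sl25_count : ((Finset.univ.filter fun x : SL(2, ZMod 5) => x ^ 3 = 1) ×ˢ
    (Finset.univ.filter fun x : SL(2, ZMod 5) => x ^ 5 = 1) |>.filter
      fun p => (p.1 * p.2) ^ 2 = sl25Z).card = 120 := by
  decide +kernel

theorem card_mulAut_sl25 : Nat.card (MulAut SL(2, ZMod 5)) ≤ 120 := by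
  rw [← sl25_count, ← Nat.card_eq_finsetCard]
  have hZ : ∀ α : MulAut SL(2, ZMod 5), α sl25Z = sl25Z := fun α =>
    (sl25_sq_eq_one (α sl25Z) (by rw [← map_pow, sl25Z_pow, map_one])).resolve_left fun h =>
      absurd (α.injective (h.trans (map_one α).symm)) (by decide)
  refine Nat.card_le_card_of_injective (fun α => ⟨(α sl25X, α sl25Y), ?_⟩) fun α β h => ?_
  · simp only [Finset.mem_filter, Finset.mem_product, Finset.mem_univ, true_and]
    rw [← map_pow, ← map_pow, ← map_mul, ← map_pow, sl25X_pow, sl25Y_pow, sl25XY, map_one, hZ]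
    exact ⟨⟨rfl, rfl⟩, rfl⟩
  · simp only [Subtype.mk.injEq, Prod.mk.injEq] at h
    have := MonoidHom.eq_of_eqOn_dense sl25_closure (f := (α : SL(2, ZMod 5) →* SL(2, ZMod 5)))
      (g := (β : SL(2, ZMod 5) →* SL(2, ZMod 5))) (by
        rintro _ (rfl | rfl)
        · exact h.1
        · exact h.2)
    exact MulEquiv.toMonoidHom_injective this

set_option maxRecDepth 100000 in
theorem sl25_center : ∀ g : SL(2, ZMod 5), g * sl25X = sl25X * g → g * sl25Y = sl25Y * g →
    g = 1 ∨ g = sl25Z := by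
  decide +kernel

/-- a second element of order `3` -/
def sl25B : SL(2, ZMod 5) := ⟨!![4, 2; 2, 0], by decide⟩
/-- a third element of order `3` -/
def sl25C : SL(2, ZMod 5) := ⟨!![0, 1; 4, 4], by decide⟩

variable {G : Type*} [Group G] [Finite G]

theorem IsFC.exists_sl25_of_ten (hG : IsFC G) {a b : G} (ha : orderOf a = 3) (hb : orderOf b = 3)
    (hab : orderOf (a * b) = 10) : ∃ f : SL(2, ZMod 5) →* G, Function.Injective f ∧
      f sl25X = a ∧ f sl25Y = (a * b) ^ 2 := by
  obtain ⟨A, _, _, _, φ, hφ⟩ := hG.exists_fpf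
  have hz : orderOf ((a * b) ^ 5) = 2 := orderOf_pow_of_mul (by norm_num) hab
  have h1 := hφ.cE_sq_of_ten ha hb hab
  rw [hφ.cE_eq ha hb] at h1
  have h2 : φ (a * (a * b) ^ 2) + φ (a * (a * b) ^ 2)⁻¹ = 0 := by
    apply natCast_cancel 16
    have hA := hφ.three ha
    have hB := hφ.three hb
    simp only [mul_inv_rev, map_mul, sq, hφ.three_inv ha, hφ.three_inv hb] at h1 ⊢
    generalize φ a = X at *
    generalize φ b = Y at *
    have hA' : ∀ x, X * (X * x) = -(X * x) - x := fun x => by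
      rw [← mul_assoc, hA]; noncomm_ring
    have hB' : ∀ x, Y * (Y * x) = -(Y * x) - x := fun x => by
      rw [← mul_assoc, hB]; noncomm_ring
    linear_combination (norm := noncomm_ring [lit, hA, hB, hA', hB']) -h1
  have h3 : (a * (a * b) ^ 2) ^ 2 = (a * b) ^ 5 := by
    apply hφ.inj
    have h4 := map_mul_inv' φ (a * (a * b) ^ 2)
    rw [hφ.neg hz, map_pow]
    linear_combination (norm := noncomm_ring [lit]) φ (a * (a * b) ^ 2) * h2 - h4
  obtain ⟨f, f1, f2, f3⟩ := sl25_exists_hom (x := a) (y := (a * b) ^ 2) (z := (a * b) ^ 5)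
    (ha ▸ pow_orderOf_eq_one a) (by rw [← pow_mul]; exact (hab ▸ pow_orderOf_eq_one (a * b) :
      (a * b) ^ 10 = 1)) (hz ▸ pow_orderOf_eq_one _) (hG.invol_comm hz a).symm
      (hG.invol_comm hz _).symm h3
  refine ⟨f, sl25_injective f ?_, f1, f2⟩
  rw [f3]
  intro h
  rw [h, orderOf_one] at hz
  omega

theorem IsFC.mem_range_of_three (hG : IsFC G) (f : SL(2, ZMod 5) →* G)
    (hf : Function.Injective f) {y : G} (hy : orderOf y = 3) : y ∈ f.range := by
  obtain ⟨A, _, _, _, φ, hφ⟩ := hG.exists_fpf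
  have : Fact (Nat.Prime 3) := ⟨Nat.prime_three⟩
  have ho : ∀ g : SL(2, ZMod 5), g ^ 3 = 1 → g ≠ 1 → orderOf (f g) = 3 := fun g h1 h2 => by
    rw [orderOf_injective f hf, orderOf_eq_prime h1 h2]
  have hz : orderOf (f sl25Z) = 2 := by
    rw [orderOf_injective f hf, orderOf_eq_prime sl25Z_pow (by decide)]
  have c : Cfg φ (f sl25X) (f sl25B) := ⟨hφ, ho _ (by decide) (by decide),
    ho _ (by decide) (by decide), by
      rw [← map_mul φ, ← map_mul f, ← map_mul f, ← hφ.neg hz]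
      congr 2
      decide⟩
  refine c.mem_of_three hG f.range ⟨_, rfl⟩ ⟨_, rfl⟩ (x := f sl25C) ⟨_, rfl⟩
    (ho _ (by decide) (by decide)) ?_ hy
  rintro ⟨x, hx, h⟩
  rcases hx with rfl | rfl | rfl | rfl
  · rw [← map_one f] at h
    simp only [← map_mul, ← map_inv, hf.eq_iff] at h
    revert h; decide
  all_goals
    simp only [← map_mul, ← map_inv, hf.eq_iff] at h
    revert h; decide

theorem IsFC.exists_normal_sl25 (hG : IsFC G) (hns : ¬ Group.IsSolvable G) :
    ∃ f : SL(2, ZMod 5) →* G, Function.Injective f ∧ f.range.Normal := by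
  obtain ⟨a, b, ha, hb, hab⟩ := hG.exists_ten hns
  obtain ⟨f, hf, f1, f2⟩ := hG.exists_sl25_of_ten ha hb hab
  refine ⟨f, hf, ⟨fun x hx g => ?_⟩⟩
  have h1 : f.range ≤ f.range.comap (MulAut.conj g).toMonoidHom := by
    conv_lhs => rw [f.range_eq_map, ← sl25_closure, MonoidHom.map_closure]
    rw [Subgroup.closure_le]
    have h2 : a ∈ f.range.comap (MulAut.conj g).toMonoidHom :=
      hG.mem_range_of_three f hf (by rw [← ha]; exact orderOf_conj' g)
    have h3 : b ∈ f.range.comap (MulAut.conj g).toMonoidHom :=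
      hG.mem_range_of_three f hf (by rw [← hb]; exact orderOf_conj' g)
    rintro _ ⟨_, rfl | rfl, rfl⟩
    · rw [f1]; exact h2
    · rw [f2]; exact pow_mem (mul_mem h2 h3) 2
  exact h1 hx

theorem IsFC.nonsolvable_structure (hG : IsFC G) (hns : ¬ Group.IsSolvable G) :
    ∃ G₀ : Subgroup G, G₀.Normal ∧ (G₀.index = 1 ∨ G₀.index = 2) ∧
      ∃ S M : Subgroup G, S ⊔ M = G₀ ∧ S ⊓ M = ⊥ ∧ (∀ s ∈ S, ∀ x ∈ M, s * x = x * s) ∧
        Nonempty (S ≃* SL(2, ZMod 5)) ∧ IsZGroup M ∧ (Nat.card M).Coprime 30 := by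
  obtain ⟨f, hf, hn⟩ := hG.exists_normal_sl25 hns
  let e : SL(2, ZMod 5) ≃* f.range := MonoidHom.ofInjective hf
  set L := f.range with hL
  set C := Subgroup.centralizer (L : Set G) with hC
  have hz : orderOf (f sl25Z) = 2 := by
    rw [orderOf_injective f hf, orderOf_eq_prime sl25Z_pow (by decide)]
  have h2 : ∀ (k : ℕ), ∀ t ∈ C, t ^ 2 ^ k = 1 → t ^ 2 = 1 := by
    intro k
    induction k with
    | zero => intro t _ h; rw [pow_zero, pow_one] at h; rw [h, one_pow]
    | succ k ih =>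
      intro t ht h
      rw [pow_succ', pow_mul] at h
      by_contra h1
      refine hG.not_comm_four (i := f (sl25X * sl25Y)) (j := f sl25X) (t := t) ?_ ?_
        (orderOf_eq_prime (ih _ (pow_mem ht 2) h) h1) (ht _ ⟨_, rfl⟩).symm (ht _ ⟨_, rfl⟩).symm
      · rw [← map_pow, sl25XY, hz]
      · rw [← map_mul, ← map_mul, Ne, hf.eq_iff]; decide
  have hF : CfsgH6.FrobHyp 2 C := by
    intro X hXC hX g _ _ _ x hx
    obtain ⟨k, hk⟩ := hX ⟨x, hx⟩
    rcases hG.eq_one_or_eq_of_sq hz (h2 k x (hXC hx) (congrArg Subtype.val hk)) with h | h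
    · simp [h]
    · rw [h, hG.invol_comm hz g]
  have hN := hF.pNil
  have hLC : ∀ x ∈ L, x ∈ C → x = 1 ∨ x = f sl25Z := by
    rintro _ ⟨g, rfl⟩ h
    have h3 := h _ ⟨sl25X, rfl⟩
    have h4 := h _ ⟨sl25Y, rfl⟩
    rw [← map_mul, ← map_mul, hf.eq_iff] at h3 h4
    exact (sl25_center g h3.symm h4.symm).imp (fun h => by rw [h, map_one]) fun h => by rw [h]
  have hbot : L ⊓ hN.compl = ⊥ := by
    rw [eq_bot_iff]
    rintro x ⟨hx, hx1, hx2⟩
    rcases hLC x hx hx1 with h | h
    · exact h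
    · rw [h, hz] at hx2; norm_num at hx2
  have hsup : L ⊔ hN.compl = L ⊔ C := by
    refine le_antisymm (sup_le_sup_left hN.compl_le _) (sup_le le_sup_left fun c hc => ?_)
    obtain ⟨k, hk⟩ := hN.pow_mem_compl Nat.prime_two c hc
    have h3 : (c ^ orderOf (c ^ 2 ^ k)) ^ 2 = 1 := h2 k _ (pow_mem hc _) (by
      rw [← pow_mul, mul_comm, pow_mul, pow_orderOf_eq_one])
    have h4 : c ^ orderOf (c ^ 2 ^ k) ∈ L := by
      rcases hG.eq_one_or_eq_of_sq hz h3 with h | h <;> rw [h]
      · exact one_mem _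
      · exact ⟨_, rfl⟩
    have h5 : IsCoprime ((orderOf (c ^ 2 ^ k) : ℕ) : ℤ) ((2 ^ k : ℕ) : ℤ) :=
      Nat.isCoprime_iff_coprime.2 (hk.2.pow_right k)
    obtain ⟨u, v, huv⟩ := h5
    have h6 : c = (c ^ orderOf (c ^ 2 ^ k)) ^ u * (c ^ 2 ^ k) ^ v := by
      generalize orderOf (c ^ 2 ^ k) = m at huv
      rw [← zpow_natCast c m, ← zpow_natCast c (2 ^ k), ← zpow_mul, ← zpow_mul, ← zpow_add,
        mul_comm _ u, mul_comm _ v, huv, zpow_one]
    rw [h6]
    exact Subgroup.mul_mem_sup (zpow_mem h4 u) (zpow_mem hk v)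
  have hodd := hN.coprime_card_compl Nat.prime_two
  have hp : ∀ (p : ℕ) (g : SL(2, ZMod 5)), p.Prime → g ^ p = 1 → g ≠ 1 →
      (Nat.card hN.compl).Coprime p := by
    intro p g hp h3 h4
    have := Fact.mk hp
    rw [Nat.coprime_comm, hp.coprime_iff_not_dvd]
    intro hd
    obtain ⟨x, hx⟩ := exists_prime_orderOf_dvd_card' p hd
    have h5 : (x : G) ∈ Subgroup.zpowers (f g) := hG.no_pp hp _ _
      (by rw [orderOf_injective f hf, orderOf_eq_prime h3 h4])
      (by rw [← hx, ← Subgroup.coe_pow, pow_orderOf_eq_one]; rfl) (x.2.1 _ ⟨_, rfl⟩)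
    have h6 : (x : G) ∈ L ⊓ hN.compl := ⟨(Subgroup.zpowers_le.2 ⟨g, rfl⟩ : _ ≤ L) h5, x.2⟩
    rw [hbot] at h6
    rw [show x = 1 from Subtype.ext h6, orderOf_one] at hx
    exact hp.one_lt.ne hx
  refine ⟨L ⊔ C, inferInstance, ?_, L, hN.compl, hsup, hbot,
    fun s hs x hx => hx.1 s hs, ⟨e.symm⟩,
    (hG.subgroup _).isZGroup_of_odd (Nat.coprime_two_right.1 hodd), ?_⟩
  · have h3 : C.index ≤ 120 := by
      have h4 : (MulAut.conjNormal (H := L)).ker = C := by
        ext g
        rw [MonoidHom.mem_ker, Subgroup.mem_centralizer_iff]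
        constructor
        · intro h x hx
          have := congrArg Subtype.val (DFunLike.congr_fun h ⟨x, hx⟩)
          exact (mul_inv_eq_iff_eq_mul.1 this).symm
        · intro h
          ext x
          exact mul_inv_eq_iff_eq_mul.2 (h x x.2).symm
      rw [← h4, Subgroup.index_ker]
      refine (Subgroup.card_le_card_group _).trans ?_
      rw [← Nat.card_congr (MulAut.congr e).toEquiv]
      exact card_mulAut_sl25
    have h4 : Nat.card (C.subgroupOf L) ≤ 2 := by
      have h5 : Nat.card (C.subgroupOf L) ≤ Nat.card ({1, f sl25Z} : Set G) :=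
        Nat.card_le_card_of_injective (fun x => ⟨x.1.1, hLC _ x.1.2 x.2⟩) fun x y h =>
          Subtype.ext (Subtype.ext (Subtype.mk.inj h))
      refine h5.trans ((Set.ncard_insert_le _ _).trans ?_)
      simp
    have h5 := (C.subgroupOf L).card_mul_index
    rw [← Nat.card_congr e.toEquiv, card_SL25] at h5
    have h6 := Subgroup.relIndex_mul_index (le_sup_right : C ≤ L ⊔ C)
    rw [Subgroup.relIndex_sup_right, Subgroup.relIndex] at h6
    have h7 : (L ⊔ C).index ≠ 0 := Subgroup.index_ne_zero_of_finite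
    have h8 : 60 ≤ (C.subgroupOf L).index := by nlinarith
    have h9 : (L ⊔ C).index ≤ 2 := by nlinarith
    omega
  · rw [show 30 = 2 * 3 * 5 by norm_num]
    exact (hodd.mul_right (hp 3 sl25X Nat.prime_three sl25X_pow (by decide))).mul_right
      (hp 5 sl25Y Nat.prime_five sl25Y_pow (by decide))

end CfsgH3
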